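/-
Isometries of a six-dimensional symplectic space in characteristic three: basic notions.
-/
import Mathlib
import Cfsg.Agent.Lib.Classical.Symp.DecompMax
import Cfsg.Agent.Lib.Cover2.Basic

set_option autoImplicit false

namespace Cfsg.Agent.Lib.Cover2.SpT

open Module Polynomial

variable {F V : Type*} [Field F] [AddCommGroup V] [Module F V]

/-- Self-adjoint operators. -/
def SA (B : LinearMap.BilinForm F V) (A : End F V) : Prop := ∀ x y, B (A x) y = B x (A y)

/-- `g` has an invariant hyperbolic plane. -/
def Split2 (B : LinearMap.BilinForm F V) (g : End F V) : Prop :=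
  ∃ e f, B e f = 1 ∧ g e ∈ Submodule.span F {e, f} ∧ g f ∈ Submodule.span F {e, f}

/-- `g` normalizes a field structure of Artin-Schreier type. -/
def FieldStr (B : LinearMap.BilinForm F V) (c : F) (g : End F V) : Prop :=
  ∃ (ω : End F V) (k : F), SA B ω ∧ ω ^ 3 - ω = c • 1 ∧ ∀ x, g (ω x) = ω (g x) + k • g x

/-- A pair of mutually inverse isometries. -/
structure IsoPair (B : LinearMap.BilinForm F V) (g gi : End F V) : Prop where
  mul_inv : g * gi = 1
  inv_mul : gi * g = 1
  isom : ∀ x y, B (g x) (g y) = B x y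

variable {B : LinearMap.BilinForm F V} {g gi : End F V}

namespace IsoPair

theorem right (hg : IsoPair B g gi) (x : V) : g (gi x) = x := by
  have := congrArg (fun f : End F V => f x) hg.mul_inv
  simpa using this

theorem left (hg : IsoPair B g gi) (x : V) : gi (g x) = x := by
  have := congrArg (fun f : End F V => f x) hg.inv_mul
  simpa using this

theorem adj (hg : IsoPair B g gi) (x y : V) : B (g x) y = B x (gi y) := by
  rw [← hg.isom x (gi y), hg.right]

theorem symm (hg : IsoPair B g gi) : IsoPair B gi g := by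
  refine ⟨hg.inv_mul, hg.mul_inv, fun x y => ?_⟩
  rw [← hg.isom (gi x) (gi y), hg.right, hg.right]

theorem adj' (hg : IsoPair B g gi) (x y : V) : B (gi x) y = B x (g y) := hg.symm.adj x y

theorem smul (hg : IsoPair B g gi) {ε : F} (h : ε * ε = 1) : IsoPair B (ε • g) (ε • gi) := by
  refine ⟨?_, ?_, fun x y => ?_⟩
  · rw [smul_mul_smul_comm, h, hg.mul_inv, one_smul]
  · rw [smul_mul_smul_comm, h, hg.inv_mul, one_smul]
  · simp only [LinearMap.smul_apply, map_smul, LinearMap.smul_apply, smul_eq_mul, hg.isom]
    rw [← mul_assoc, h, one_mul]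

theorem comm (hg : IsoPair B g gi) : Commute g gi := by
  rw [Commute, SemiconjBy, hg.mul_inv, hg.inv_mul]

theorem comm_T (hg : IsoPair B g gi) : Commute g (g + gi) :=
  (Commute.refl g).add_right hg.comm

theorem sa_T (hg : IsoPair B g gi) : SA B (g + gi) := by
  intro x y
  simp only [LinearMap.add_apply, map_add, LinearMap.BilinForm.add_left, hg.adj, hg.adj']
  exact add_comm _ _

end IsoPair

namespace SA

theorem add {A C : End F V} (hA : SA B A) (hC : SA B C) : SA B (A + C) := by
  intro x y
  simp only [LinearMap.add_apply, map_add, LinearMap.BilinForm.add_left, hA x y, hC x y]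

theorem smul {A : End F V} (hA : SA B A) (r : F) : SA B (r • A) := by
  intro x y
  simp only [LinearMap.smul_apply, map_smul, LinearMap.BilinForm.smul_left, hA x y, smul_eq_mul]

theorem neg {A : End F V} (hA : SA B A) : SA B (-A) := by
  intro x y
  simp only [LinearMap.neg_apply, map_neg, LinearMap.BilinForm.neg_left, hA x y]

theorem sub {A C : End F V} (hA : SA B A) (hC : SA B C) : SA B (A - C) := by
  rw [sub_eq_add_neg]
  exact hA.add hC.neg

theorem one : SA B (1 : End F V) := fun _ _ => rfl

theorem mul {A C : End F V} (hA : SA B A) (hC : SA B C) (h : Commute A C) : SA B (A * C) := by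
  intro x y
  rw [Module.End.mul_apply, hA, hC, ← Module.End.mul_apply C A, ← h.eq]

theorem pow {A : End F V} (hA : SA B A) (n : ℕ) : SA B (A ^ n) := by
  induction n with
  | zero => simpa using one
  | succ n ih =>
    rw [pow_succ]
    exact ih.mul hA ((Commute.refl A).pow_left n)

theorem aeval {A : End F V} (hA : SA B A) (p : F[X]) : SA B (aeval A p) := by
  induction p using Polynomial.induction_on' with
  | add p q hp hq =>
    rw [map_add]
    exact hp.add hq
  | monomial n a =>
    rw [Polynomial.aeval_monomial]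
    have : (algebraMap F (End F V)) a * A ^ n = a • A ^ n := by
      rw [Algebra.smul_def]
    rw [this]
    exact (hA.pow n).smul a

theorem self_zero {A : End F V} (hA : SA B A) (hAlt : B.IsAlt) (h2 : (2 : F) ≠ 0) (x : V) :
    B (A x) x = 0 := by
  have h1 : B (A x) x = B x (A x) := hA x x
  have h3 : - B x (A x) = B (A x) x := LinearMap.BilinForm.IsAlt.neg_eq hAlt x (A x)
  have h4 : (2 : F) * B (A x) x = 0 := by
    rw [two_mul]
    nth_rw 1 [h1]
    rw [← h3]
    ring
  exact (mul_eq_zero.mp h4).resolve_left h2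

end SA

/-- Two vectors of a subspace spanned by a totally isotropic set are orthogonal. -/
theorem ti_of_span {S : Set V} (h : ∀ x ∈ S, ∀ y ∈ S, B x y = 0) :
    ∀ x ∈ Submodule.span F S, ∀ y ∈ Submodule.span F S, B x y = 0 := by
  intro x hx y hy
  induction hy using Submodule.span_induction with
  | mem y hy =>
    induction hx using Submodule.span_induction with
    | mem x hx => exact h x hx y hy
    | zero => simp
    | add a b _ _ ha hb => simp [ha, hb]
    | smul r a _ ha => simp [ha]
  | zero => simp
  | add a b _ _ ha hb => simp [ha, hb]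
  | smul r a _ ha => simp [ha]

variable [FiniteDimensional F V]

theorem nondeg_of_left (hAlt : B.IsAlt) (h : ∀ x, (∀ y, B x y = 0) → x = 0) : B.Nondegenerate := by
  refine ⟨fun x hx => h x hx, fun y hy => h y (fun x => ?_)⟩
  have h1 := LinearMap.BilinForm.IsAlt.neg_eq hAlt x y
  rw [← h1, hy x, neg_zero]

/-- Separation: a vector outside a subspace is detected by a vector orthogonal to the subspace. -/
theorem exists_sep (hAlt : B.IsAlt) (hNd : B.Nondegenerate) {U : Submodule F V} {x : V} (hx : x ∉ U) :
    ∃ f, (∀ u ∈ U, B u f = 0) ∧ B x f = 1 := by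
  have hrefl : B.IsRefl := hAlt.isRefl
  have e := LinearMap.BilinForm.orthogonal_orthogonal hNd hrefl U
  rw [← e] at hx
  rw [LinearMap.BilinForm.mem_orthogonal_iff] at hx
  push Not at hx
  obtain ⟨f, hf, hne⟩ := hx
  have h1 : B x f ≠ 0 := by
    intro h0
    apply hne
    rw [← LinearMap.BilinForm.IsAlt.neg_eq hAlt x f, h0, neg_zero]
  refine ⟨(B x f)⁻¹ • f, fun u hu => ?_, ?_⟩
  · rw [map_smul]
    have : B u f = 0 := by
      rw [LinearMap.BilinForm.mem_orthogonal_iff] at hf
      exact hf u hu
    simp [this]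
  · rw [map_smul, smul_eq_mul, inv_mul_cancel₀ h1]

/-- Totally isotropic subspaces have at most half the dimension. -/
theorem finrank_ti_le (hAlt : B.IsAlt) (hNd : B.Nondegenerate) {W : Submodule F V}
    (h : ∀ x ∈ W, ∀ y ∈ W, B x y = 0) : 2 * finrank F W ≤ finrank F V := by
  have hrefl : B.IsRefl := hAlt.isRefl
  have e := LinearMap.BilinForm.finrank_orthogonal hNd W
  have hle : W ≤ B.orthogonal W := by
    intro y hy
    rw [LinearMap.BilinForm.mem_orthogonal_iff]
    intro x hx
    exact h x hx y hy
  have h1 := Submodule.finrank_mono hle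
  have h2 := Submodule.finrank_le W
  omega

/-- The chain of iterates of a vector under a nilpotent-on-it operator is independent. -/
theorem chain_indep (N : End F V) (x : V) (m : ℕ) (h0 : (N ^ m) x ≠ 0) (h1 : (N ^ (m + 1)) x = 0) :
    LinearIndependent F (fun i : Fin (m + 1) => (N ^ (i : ℕ)) x) := by
  rw [Fintype.linearIndependent_iff]
  intro a ha
  have hz : ∀ k, m + 1 ≤ k → (N ^ k) x = 0 := by
    intro k hk
    obtain ⟨d, rfl⟩ := Nat.exists_eq_add_of_le hk
    rw [add_comm, pow_add, Module.End.mul_apply, h1, map_zero]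
  have key : ∀ n (i : Fin (m + 1)), (i : ℕ) = n → a i = 0 := by
    intro n
    induction n using Nat.strong_induction_on with
    | _ n ih =>
      intro i hi
      have h2 := congrArg (fun y => (N ^ (m - n)) y) ha
      simp only [map_sum, map_smul, map_zero] at h2
      rw [Finset.sum_eq_single i] at h2
      · rw [← Module.End.mul_apply, ← pow_add] at h2
        have e : m - n + (i : ℕ) = m := by omega
        rw [e] at h2
        exact (smul_eq_zero.mp h2).resolve_right h0
      · intro j _ hj
        rcases lt_or_gt_of_ne (fun e => hj (Fin.ext e) : (j : ℕ) ≠ i) with hlt | hgt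
        · rw [ih j (by omega) j rfl, zero_smul]
        · rw [← Module.End.mul_apply, ← pow_add, hz _ (by omega), smul_zero]
      · intro h; exact absurd (Finset.mem_univ i) h
  intro i
  exact key i i rfl

/-- A `g`-invariant nondegenerate plane gives `Split2`. -/
theorem split_of_finrank_two (hAlt : B.IsAlt) {W : Submodule F V} (hW2 : finrank F W = 2)
    (hnd : ∀ x ∈ W, (∀ y ∈ W, B x y = 0) → x = 0) (hinv : ∀ x ∈ W, g x ∈ W) : Split2 B g := by
  have hpos : 0 < finrank F W := by omega
  haveI : Nontrivial W := Module.nontrivial_of_finrank_pos hpos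
  obtain ⟨e', he'⟩ := exists_ne (0 : W)
  have he0 : (e' : V) ≠ 0 := fun h => he' (Subtype.ext h)
  have : ∃ y ∈ W, B e' y ≠ 0 := by
    by_contra hc
    push Not at hc
    exact he0 (hnd _ e'.2 hc)
  obtain ⟨f', hf', hne⟩ := this
  set e : V := (e' : V)
  set f : V := (B e f')⁻¹ • f'
  have hef : B e f = 1 := by
    simp only [f, map_smul, smul_eq_mul]
    exact inv_mul_cancel₀ hne
  have hfW : f ∈ W := W.smul_mem _ hf'
  have hle : Submodule.span F {e, f} ≤ W := by
    rw [Submodule.span_le]
    rintro y (rfl | rfl)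
    · exact e'.2
    · exact hfW
  have hind : LinearIndependent F ![e, f] := by
    rw [LinearIndependent.pair_iff]
    intro s t hst
    have h1 := congrArg (fun y => B e y) hst
    simp only [map_add, map_smul, smul_eq_mul, map_zero, hef, hAlt e, mul_zero, zero_add, mul_one] at h1
    subst h1
    have h2 : s • e = 0 := by simpa using hst
    exact ⟨(smul_eq_zero.mp h2).resolve_right he0, rfl⟩
  have hfr : finrank F (Submodule.span F {e, f}) = 2 := by
    have := finrank_span_eq_card hind
    have e2 : Set.range ![e, f] = {e, f} := by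
      simp [Matrix.range_cons, Matrix.range_empty]
      exact Set.pair_comm _ _
    rw [e2] at this
    simpa using this
  have heq : Submodule.span F {e, f} = W :=
    Submodule.eq_of_le_of_finrank_eq hle (by rw [hfr, hW2])
  refine ⟨e, f, hef, ?_, ?_⟩
  · rw [heq]; exact hinv _ e'.2
  · rw [heq]; exact hinv _ hfW

/-- A `g`-invariant orthogonal decomposition into nonzero summands of a `6`-space gives `Split2`. -/
theorem split_of_isCompl (hAlt : B.IsAlt) (hNd : B.Nondegenerate) (hdim : finrank F V = 6)
    {K R : Submodule F V} (hKR : IsCompl K R) (hort : ∀ x ∈ K, ∀ y ∈ R, B x y = 0)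
    (hK : K ≠ ⊥) (hR : R ≠ ⊥) (hgK : ∀ x ∈ K, g x ∈ K) (hgR : ∀ x ∈ R, g x ∈ R) : Split2 B g := by
  have hortK : ∀ x ∈ K, (∀ y ∈ K, B x y = 0) → x = 0 := by
    intro x hx h
    apply hNd.1 x
    intro z
    have hz : z ∈ K ⊔ R := by rw [hKR.sup_eq_top]; trivial
    obtain ⟨k, hk, r, hr, rfl⟩ := Submodule.mem_sup.mp hz
    rw [map_add, h k hk, hort x hx r hr, add_zero]
  have hortR : ∀ x ∈ R, (∀ y ∈ R, B x y = 0) → x = 0 := by
    intro x hx h
    apply hNd.1 x
    intro z
    have hz : z ∈ K ⊔ R := by rw [hKR.sup_eq_top]; trivial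
    obtain ⟨k, hk, r, hr, rfl⟩ := Submodule.mem_sup.mp hz
    rw [map_add, h r hr, add_zero, ← LinearMap.BilinForm.IsAlt.neg_eq hAlt k x, hort k hk x hx, neg_zero]
  have ev : ∀ W : Submodule F V, (∀ x ∈ W, (∀ y ∈ W, B x y = 0) → x = 0) → ∃ k, finrank F W = 2 * k := by
    intro W hW
    refine Cfsg.Agent.Lib.Classical.Symp.DecompMax.even_finrank (F := F) (finrank F W) (V := W)
      (B.restrict W) (fun x => hAlt x) ?_ rfl
    refine nondeg_of_left (fun x => hAlt x) fun x hx => ?_
    exact Subtype.ext (hW x x.2 fun y hy => hx ⟨y, hy⟩)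
  obtain ⟨k1, h1⟩ := ev K hortK
  obtain ⟨k2, h2⟩ := ev R hortR
  have hs := Submodule.finrank_add_eq_of_isCompl hKR
  have hp1 : finrank F K ≠ 0 := by
    intro h0
    exact hK (Submodule.finrank_eq_zero.mp h0)
  have hp2 : finrank F R ≠ 0 := by
    intro h0
    exact hR (Submodule.finrank_eq_zero.mp h0)
  have : finrank F K = 2 ∨ finrank F R = 2 := by omega
  rcases this with h | h
  · exact split_of_finrank_two hAlt h hortK hgK
  · exact split_of_finrank_two hAlt h hortR hgR

end Cfsg.Agent.Lib.Cover2.SpT
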