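/-
Final step of the construction of a field structure: from `ω₁` with `ω₁³ - ω₁` scalar.
-/
import Mathlib
import Cfsg.Agent.Lib.Cover2.SpT.Core

set_option autoImplicit false

namespace Cfsg.Agent.Lib.Cover2.SpT

open Module Polynomial

/-- Ring identity in characteristic three. -/
theorem cube_add_aux {R : Type*} [Ring R] (h3 : (3 : R) = 0) {w a b : R}
    (h1 : w * a = a * w + b) (h2 : w * b = b * w + a) (hab : a * b = b * a) :
    (w + a) ^ 3 = w ^ 3 + a ^ 3 + a := by
  have e1 : w * w * a = a * w * w + b * w + b * w + a := by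
    rw [mul_assoc, h1, mul_add, ← mul_assoc, h1, h2]
    noncomm_ring
  have e2 : w * a * w = a * w * w + b * w := by
    rw [h1]; noncomm_ring
  have e3 : w * a * a = a * a * w + b * a + a * b := by
    rw [h1, add_mul, mul_assoc, h1]; noncomm_ring
  have e4 : a * w * a = a * a * w + a * b := by
    rw [mul_assoc, h1]; noncomm_ring
  have e5 : (w + a) ^ 3 = w ^ 3 + a ^ 3 + (w * w * a + w * a * w + a * w * w)
      + (w * a * a + a * w * a + a * a * w) := by noncomm_ring
  rw [e5, e1, e2, e3, e4, hab]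
  have e6 : (3 : R) * (a * w * w + b * w + a * a * w + b * a) = 0 := by rw [h3, zero_mul]
  have e7 : w ^ 3 + a ^ 3 + (a * w * w + b * w + b * w + a + (a * w * w + b * w) + a * w * w) +
      (a * a * w + b * a + b * a + (a * a * w + b * a) + a * a * w) =
      w ^ 3 + a ^ 3 + a + (3 : R) * (a * w * w + b * w + a * a * w + b * a) := by noncomm_ring
  rw [e7, e6, add_zero]

variable {F V : Type*} [Field F] [AddCommGroup V] [Module F V]
variable {B : LinearMap.BilinForm F V} {g gi : End F V}

theorem exists_cube_root [Finite F] [CharP F 3] (x : F) : ∃ y : F, y ^ 3 = x := by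
  haveI : Fact (Nat.Prime 3) := ⟨Nat.prime_three⟩
  have hinj : Function.Injective (frobenius F 3) := (frobenius F 3).injective
  obtain ⟨y, hy⟩ := Finite.injective_iff_surjective.mp hinj x
  exact ⟨y, by simpa [frobenius_def] using hy⟩

section
variable [CharP F 3]

theorem three_eq_zero : (3 : F) = 0 := by
  have := CharP.cast_eq_zero F 3
  exact_mod_cast this

theorem two_ne_zero' : (2 : F) ≠ 0 := by
  intro h
  have h3 := three_eq_zero (F := F)
  have : (1 : F) = 0 := by
    have e : (3 : F) = 2 + 1 := by norm_num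
    rw [e, h, zero_add] at h3
    exact h3
  exact one_ne_zero this

theorem end_three_eq_zero : (3 : End F V) = 0 := by
  have e : (3 : End F V) = (3 : F) • (1 : End F V) := by
    rw [show (3 : F) = ((3 : ℕ) : F) by norm_cast, Nat.cast_smul_eq_nsmul]
    norm_num
  rw [e, three_eq_zero, zero_smul]

theorem add_cube_of_commute {x y : End F V} (h : Commute x y) :
    (x + y) ^ 3 = x ^ 3 + y ^ 3 := by
  have e : (x + y) ^ 3 = x ^ 3 + y ^ 3 + (3 : End F V) * (x ^ 2 * y + x * y ^ 2) := by
    have : (x + y) * (x + y) * (x + y) = x ^ 3 + y ^ 3 + (3 : End F V) * (x ^ 2 * y + x * y ^ 2) := by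
      have h1 : y * x = x * y := h.eq.symm
      have h2 : y * x * x = x * x * y := by rw [h1, mul_assoc, h1, mul_assoc]
      have h3 : y * x * y = x * y * y := by rw [h1]
      have h4 : x * y * x = x * x * y := by rw [mul_assoc, h1, mul_assoc]
      have h5 : y * y * x = x * y * y := by rw [mul_assoc, h1, ← mul_assoc, h1]
      noncomm_ring [h1, h2, h3, h4, h5]
    rw [← this]; noncomm_ring
  rw [e, end_three_eq_zero, zero_mul, add_zero]

/-- The final step: `ω₁` plus a suitable correction. -/
theorem fieldStr_of_correction [Finite F] (c l κ : F) (hκ : κ ≠ 0) (w a b : End F V) (hw : SA B w)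
    (hw3 : w ^ 3 - w = l • 1) (hgw : ∀ x, g (w x) = w (g x) + g x)
    (ha : SA B a) (hag : Commute g a) (h1 : w * a = a * w + b) (h2 : w * b = b * w + a)
    (hab : a * b = b * a) (ha3 : a ^ 3 = κ • 1) : FieldStr B c g := by
  obtain ⟨s, hs⟩ := exists_cube_root (F := F) ((c - l) / κ)
  have hs3 : s ^ 3 * κ = c - l := by rw [hs]; field_simp
  refine ⟨w + s • a, 1, hw.add (ha.smul s), ?_, ?_⟩
  · have e := cube_add_aux (R := End F V) end_three_eq_zero (w := w) (a := s • a) (b := s • b)
      (by rw [mul_smul_comm, h1, smul_add, smul_mul_assoc])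
      (by rw [mul_smul_comm, h2, smul_add, smul_mul_assoc])
      (by rw [smul_mul_smul_comm, smul_mul_smul_comm, hab])
    have e2 : (s • a) ^ 3 = (s ^ 3 * κ) • (1 : End F V) := by
      rw [_root_.smul_pow, ha3, smul_smul]
    rw [e, e2, hs3]
    have e3 : w ^ 3 = w + l • 1 := by rw [← hw3]; abel
    rw [e3, sub_smul]
    abel
  · intro x
    have e1 : g (a x) = a (g x) := by
      have := congrArg (fun f : End F V => f x) hag.eq
      simpa using this
    simp only [LinearMap.add_apply, LinearMap.smul_apply, map_add, map_smul, hgw, e1, one_smul]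
    abel

/-- Given `ω₁` with `ω₁³ - ω₁` scalar, normalized by `g`, and `(g + g⁻¹)³` scalar: a field structure. -/
theorem fieldStr_final [Finite F] (hg : IsoPair B g gi) (c l t : F) (w : End F V) (hw : SA B w)
    (hw3 : w ^ 3 - w = l • 1) (hgw : ∀ x, g (w x) = w (g x) + g x)
    (hT : (g + gi) ^ 3 = t ^ 3 • 1) : FieldStr B c g := by
  -- commutators
  have hwg : w * g = g * w - g := by
    ext x
    simp [hgw]
  have hwgi : w * gi = gi * w + gi := by
    have e1 : gi * (g * w) * gi = w * gi := by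
      rw [← mul_assoc, hg.inv_mul, one_mul]
    have e2 : g * w = w * g + g := by
      rw [hwg]; abel
    rw [← e1, e2]
    rw [mul_add, add_mul, ← mul_assoc gi w g, mul_assoc (gi * w) g gi, hg.mul_inv, mul_one, mul_assoc gi g gi, hg.mul_inv, mul_one]
  have hgigc : g * gi = gi * g := by rw [hg.mul_inv, hg.inv_mul]
  have h2 : (2 : End F V) = -1 := by
    have := end_three_eq_zero (F := F) (V := V)
    have e : (2 : End F V) + 1 = 3 := by norm_num
    rw [this] at e
    exact eq_neg_of_add_eq_zero_left e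
  by_cases ht : t = 0
  · -- `t = 0`: use `g² + g⁻²`.
    have hc : Commute (g ^ 2) (gi ^ 2) := (hg.comm).pow_pow 2 2
    have hc3 : Commute (g ^ 3) (gi ^ 3) := (hg.comm).pow_pow 3 3
    have h33 : g ^ 3 + gi ^ 3 = 0 := by
      rw [← add_cube_of_commute hg.comm, hT, ht]
      simp
    have hgi3 : gi ^ 3 = - g ^ 3 := eq_neg_of_add_eq_zero_right h33
    have hg3 : g ^ 3 * gi ^ 3 = 1 := by
      rw [← (hg.comm).mul_pow, hg.mul_inv, one_pow]
    have ha3 : (g ^ 2 + gi ^ 2) ^ 3 = (1 : F) • 1 := by
      rw [add_cube_of_commute hc, one_smul]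
      have e1 : (g ^ 2) ^ 3 = (g ^ 3) ^ 2 := by rw [← pow_mul, ← pow_mul]
      have e2 : (gi ^ 2) ^ 3 = (gi ^ 3) ^ 2 := by rw [← pow_mul, ← pow_mul]
      rw [e1, e2, hgi3]
      have e3 : g ^ 3 * g ^ 3 = -1 := by
        have := hg3
        rw [hgi3, mul_neg] at this
        exact neg_eq_iff_eq_neg.mp this
      rw [neg_sq, sq, e3, ← two_mul, h2]
      simp
    have h1g : w * g ^ 2 = g ^ 2 * w + g ^ 2 := by
      rw [sq, ← mul_assoc, hwg, sub_mul, mul_assoc, hwg, mul_sub, ← mul_assoc]
      have : g * g * w - g * g - g * g = g * g * w - (2 : End F V) * (g * g) := by noncomm_ring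
      rw [this, h2]
      noncomm_ring
    have h1gi : w * gi ^ 2 = gi ^ 2 * w - gi ^ 2 := by
      rw [sq, ← mul_assoc, hwgi, add_mul, mul_assoc, hwgi, mul_add, ← mul_assoc]
      have : gi * gi * w + gi * gi + gi * gi = gi * gi * w + (2 : End F V) * (gi * gi) := by noncomm_ring
      rw [this, h2]
      noncomm_ring
    refine fieldStr_of_correction c l 1 one_ne_zero w (g ^ 2 + gi ^ 2) (g ^ 2 - gi ^ 2) hw hw3 hgw
      ?_ ?_ ?_ ?_ ?_ ha3
    · have e : g ^ 2 + gi ^ 2 = (g + gi) ^ 2 - (2 : F) • 1 := by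
        have : (2 : F) • (1 : End F V) = g * gi + g * gi := by
          rw [hg.mul_inv, two_smul]
        rw [this, sq, sq, sq]
        noncomm_ring [hgigc]
      rw [e]
      exact (hg.sa_T.pow 2).sub (SA.one.smul _)
    · exact ((Commute.refl g).pow_right 2).add_right (hg.comm.pow_right 2)
    · rw [mul_add, h1g, h1gi]; noncomm_ring
    · rw [mul_sub, h1g, h1gi]; noncomm_ring
    · exact (((Commute.refl _).sub_right hc).add_left (hc.symm.sub_right (Commute.refl _))).eq
  · -- `t ≠ 0`: use `g + g⁻¹`.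
    refine fieldStr_of_correction c l (t ^ 3) (pow_ne_zero 3 ht) w (g + gi) (gi - g) hw hw3 hgw
      hg.sa_T hg.comm_T ?_ ?_ ?_ hT
    · rw [mul_add, hwg, hwgi]; noncomm_ring
    · rw [mul_sub, hwg, hwgi]; noncomm_ring
    · exact ((hg.comm.sub_right (Commute.refl g)).add_left ((Commute.refl gi).sub_right hg.comm.symm)).eq

end

end Cfsg.Agent.Lib.Cover2.SpT
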