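/-
The cyclic case: `v, gv, …, g⁵v` is a basis.
-/
import Mathlib
import Cfsg.Agent.Lib.Cover2.SpT.Final

set_option autoImplicit false

namespace Cfsg.Agent.Lib.Cover2.SpT

open Module Polynomial

variable {F V : Type*} [Field F] [AddCommGroup V] [Module F V]
variable {B : LinearMap.BilinForm F V} {g gi : End F V}

section
variable [CharP F 3] [FiniteDimensional F V]

theorem g_six (hg : IsoPair B g gi) {t : F} (hT : (g + gi) ^ 3 = t ^ 3 • 1) :
    g ^ 6 = t ^ 3 • g ^ 3 - 1 := by
  have e1 : g ^ 3 + gi ^ 3 = t ^ 3 • 1 := by rw [← add_cube_of_commute hg.comm, hT]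
  have e2 : g ^ 3 * gi ^ 3 = 1 := by
    rw [← (hg.comm).mul_pow, hg.mul_inv, one_pow]
  have e3 : g ^ 3 * (g ^ 3 + gi ^ 3) = g ^ 6 + 1 := by
    rw [mul_add, e2, ← pow_add]
  rw [e1, mul_smul_comm, mul_one] at e3
  rw [e3]
  abel

theorem exists_left_adj (hNd : B.Nondegenerate) (D : End F V) : ∃ A : End F V, ∀ x y, B (A x) y = B x (D y) := by
  refine ⟨B.leftAdjointOfNondegenerate hNd D, ?_⟩
  exact LinearMap.BilinForm.isAdjointPairLeftAdjointOfNondegenerate B hNd D

theorem fieldStr_of_cyclic [Finite F] (hAlt : B.IsAlt) (hNd : B.Nondegenerate) (hdim : finrank F V = 6)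
    (hg : IsoPair B g gi) (c t : F) (hT : (g + gi) ^ 3 = t ^ 3 • 1) (v : V)
    (hind : LinearIndependent F (fun i : Fin 6 => (g ^ (i : ℕ)) v)) : FieldStr B c g := by
  have h3 : (3 : F) = 0 := three_eq_zero
  have h6 := g_six hg hT
  let bas : Basis (Fin 6) F V := basisOfLinearIndependentOfCardEqFinrank hind (by simp [hdim])
  have hbas : ∀ i : Fin 6, bas i = (g ^ (i : ℕ)) v := by
    intro i
    simp [bas]
  let D1 : End F V := bas.constr F (fun i => ((i : ℕ) : F) • bas i)
  have hD1 : ∀ (n : ℕ) (hn : n < 6), D1 ((g ^ n) v) = (n : F) • (g ^ n) v := by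
    intro n hn
    have := hbas ⟨n, hn⟩
    simp only at this
    rw [← this]
    simp only [D1, Basis.constr_basis]
  have hgpow : ∀ n x, g ((g ^ n) x) = (g ^ (n + 1)) x := by
    intro n x
    rw [pow_succ', Module.End.mul_apply]
  -- commutation relation on the basis
  have hDg : ∀ x, D1 (g x) = g (D1 x) + g x := by
    intro x
    have : D1 * g = g * D1 + g := by
      apply bas.ext
      intro i
      rw [hbas i]
      simp only [Module.End.mul_apply, LinearMap.add_apply]
      have hi := i.2
      by_cases h5 : (i : ℕ) < 5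
      · rw [hD1 i hi, hgpow, hD1 (i + 1) (by omega), map_smul, hgpow]
        rw [Nat.cast_add, Nat.cast_one, add_smul, one_smul]
      · have hi5 : (i : ℕ) = 5 := by omega
        rw [hi5, hD1 5 (by omega), hgpow, map_smul, hgpow]
        have e6 : (g ^ (5 + 1)) v = t ^ 3 • (g ^ 3) v - v := by
          have : (5 + 1 : ℕ) = 6 := rfl
          rw [this, h6]
          simp
        rw [e6]
        have e3 := hD1 3 (by omega)
        have e0 := hD1 0 (by omega)
        simp only [pow_zero, Module.End.one_apply] at e0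
        rw [map_sub, map_smul, e3, e0]
        have c3 : ((3 : ℕ) : F) = 0 := by exact_mod_cast h3
        have c0 : ((0 : ℕ) : F) = 0 := by simp
        have c5 : ((5 : ℕ) : F) + 1 = 0 := by
          have : ((5 : ℕ) : F) + 1 = 2 * 3 := by norm_num
          rw [this, h3, mul_zero]
        rw [c3, c0, zero_smul, zero_smul, smul_zero, sub_zero]
        rw [← one_smul F (t ^ 3 • (g ^ 3) v - v)]
        rw [smul_smul, ← add_smul, mul_one, c5, zero_smul]
    have h := congrArg (fun f : End F V => f x) this
    simpa using h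
  obtain ⟨A, hA⟩ := exists_left_adj hNd D1
  -- the adjoint has the same commutator with `g`
  have hAg : ∀ x, A (g x) = g (A x) + g x := by
    intro x
    have e1 : ∀ y, D1 (gi y) = gi (D1 y) - gi y := by
      intro y
      have := hDg (gi y)
      rw [hg.right] at this
      have e := congrArg gi this
      rw [map_add, hg.left] at e
      rw [e]
      abel
    have key : ∀ y, B (A (g x) - (g (A x) + g x)) y = 0 := by
      intro y
      rw [map_sub, map_add, LinearMap.sub_apply, LinearMap.add_apply, hA, hg.adj, hg.adj, hA, e1, hg.adj,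
        map_sub]
      abel
    exact sub_eq_zero.mp (hNd.1 _ key)
  set ω : End F V := D1 + A with hω
  have hωSA : SA B ω := by
    intro x y
    simp only [hω, LinearMap.add_apply, map_add, LinearMap.BilinForm.add_left, hA]
    have e1 : B (D1 x) y = B x (A y) := by
      rw [← LinearMap.BilinForm.IsAlt.neg_eq hAlt y (D1 x), ← hA, LinearMap.BilinForm.IsAlt.neg_eq hAlt]
    rw [e1, add_comm]
  have hgω : ∀ x, g (ω x) = ω (g x) + g x := by
    intro x
    simp only [hω, LinearMap.add_apply, map_add, hDg, hAg]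
    have e3 : (3 : F) • g x = 0 := by rw [h3, zero_smul]
    have e4 : (3 : F) • g x = g x + g x + g x := by
      rw [show (3 : F) = 1 + 1 + 1 by norm_num, add_smul, add_smul, one_smul]
    rw [e4] at e3
    have : g (D1 x) + g x + (g (A x) + g x) + g x = g (D1 x) + g (A x) + (g x + g x + g x) := by abel
    rw [this, e3, add_zero]
  have hgωm : g * ω = ω * g + g := by
    ext x
    simp [hgω]
  -- `L` commutes with `g`
  set L : End F V := ω ^ 3 - ω with hL
  have hLg : Commute g L := by
    have e : SemiconjBy g ω (ω + 1) := by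
      rw [SemiconjBy, hgωm, add_mul ω 1 g, one_mul]
    have e3 : SemiconjBy g (ω ^ 3) ((ω + 1) ^ 3) := e.pow_right 3
    have e4 : (ω + 1) ^ 3 = ω ^ 3 + 1 := by
      rw [add_cube_of_commute (Commute.one_right ω), one_pow]
    rw [e4] at e3
    rw [Commute, SemiconjBy, hL, mul_sub, sub_mul, e3.eq, hgωm, add_mul (ω ^ 3) 1 g, one_mul]
    abel
  have hLω : L * ω = ω * L := by
    have : Commute (ω ^ 3 - ω) ω := ((Commute.refl ω).pow_left 3).sub_left (Commute.refl ω)
    exact this.eq
  -- expansion
  set l : Fin 6 → F := fun i => bas.repr (L v) i with hl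
  set ψ : End F V := ∑ i : Fin 6, l i • g ^ (i : ℕ) with hψ
  have hψv : ψ v = L v := by
    have e := bas.sum_repr (L v)
    rw [← e]
    simp only [hψ, LinearMap.sum_apply, LinearMap.smul_apply, map_sum, map_smul, hbas]
    simp only [hl]
  have hψg : ∀ n, Commute (g ^ n) ψ := by
    intro n
    rw [hψ]
    refine Commute.sum_right _ _ _ fun i _ => ?_
    exact ((Commute.refl g).pow_pow n i).smul_right _
  have hLψ : L = ψ := by
    apply bas.ext
    intro j
    rw [hbas j]
    have e1 : L ((g ^ (j : ℕ)) v) = (g ^ (j : ℕ)) (L v) := by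
      have := congrArg (fun f : End F V => f v) (hLg.pow_left (j : ℕ)).eq
      simpa using this.symm
    have e2 : ψ ((g ^ (j : ℕ)) v) = (g ^ (j : ℕ)) (ψ v) := by
      have := congrArg (fun f : End F V => f v) (hψg (j : ℕ)).eq
      simpa using this.symm
    rw [e1, e2, hψv]
  have hgnω : ∀ n : ℕ, g ^ n * ω = ω * g ^ n + (n : F) • g ^ n := by
    intro n
    induction n with
    | zero => simp
    | succ n ih =>
      rw [pow_succ, mul_assoc, hgωm, mul_add, ← mul_assoc, ih, add_mul, ← pow_succ, mul_assoc, ← pow_succ,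
        smul_mul_assoc, ← pow_succ, Nat.cast_add, Nat.cast_one, add_smul, one_smul]
      abel
  have hcoef : ∀ i : Fin 6, l i * ((i : ℕ) : F) = 0 := by
    have e1 : ∑ i : Fin 6, (l i * ((i : ℕ) : F)) • (g ^ (i : ℕ)) v = 0 := by
      have e2 : ψ * ω = ω * ψ := by rw [← hLψ]; exact hLω
      have e3 : ψ * ω = ω * ψ + ∑ i : Fin 6, (l i * ((i : ℕ) : F)) • g ^ (i : ℕ) := by
        rw [hψ, Finset.sum_mul, Finset.mul_sum, ← Finset.sum_add_distrib]
        refine Finset.sum_congr rfl fun i _ => ?_
        rw [smul_mul_assoc, hgnω, smul_add, mul_smul_comm, smul_smul]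
      rw [e2] at e3
      have e4 : ∑ i : Fin 6, (l i * ((i : ℕ) : F)) • g ^ (i : ℕ) = 0 := by
        simpa using e3.symm
      have := congrArg (fun f : End F V => f v) e4
      simpa using this
    exact Fintype.linearIndependent_iff.mp hind _ e1
  have l1 : l 1 = 0 := by simpa using hcoef 1
  have l2 : l 2 = 0 := by
    have := hcoef 2
    have e : (((2 : Fin 6) : ℕ) : F) = 2 := by norm_num
    rw [e] at this
    exact (mul_eq_zero.mp this).resolve_right two_ne_zero'
  have l4 : l 4 = 0 := by
    have := hcoef 4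
    have e : (((4 : Fin 6) : ℕ) : F) = 1 := by
      have e1 : (((4 : Fin 6) : ℕ) : F) = 3 + 1 := by norm_num
      rw [e1, h3, zero_add]
    rw [e, mul_one] at this
    exact this
  have l5 : l 5 = 0 := by
    have := hcoef 5
    have e : (((5 : Fin 6) : ℕ) : F) = 2 := by
      have e1 : (((5 : Fin 6) : ℕ) : F) = 3 + 2 := by norm_num
      rw [e1, h3, zero_add]
    rw [e] at this
    exact (mul_eq_zero.mp this).resolve_right two_ne_zero'
  have hψ2 : ψ = l 0 • 1 + l 3 • g ^ 3 := by
    rw [hψ, Fin.sum_univ_six, l1, l2, l4, l5]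
    simp
  have hl3 : l 3 = 0 := by
    by_contra hne
    have hLSA : SA B L := (hωSA.pow 3).sub hωSA
    have e1 : ∀ x y, B ((g ^ 3) x) y = B x ((g ^ 3) y) := by
      intro x y
      have := hLSA x y
      rw [hLψ, hψ2] at this
      simp only [LinearMap.add_apply, LinearMap.smul_apply, map_add, map_smul, Module.End.one_apply,
        LinearMap.BilinForm.add_left, LinearMap.BilinForm.smul_left, smul_eq_mul] at this
      have e2 : l 3 * B ((g ^ 3) x) y = l 3 * B x ((g ^ 3) y) := by
        have := add_left_cancel this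
        exact this
      exact mul_left_cancel₀ hne e2
    have hiso : ∀ x y, B ((g ^ 3) x) ((g ^ 3) y) = B x y := by
      intro x y
      have e3 : ∀ z : V, (g ^ 3) z = g (g (g z)) := by
        intro z
        simp [pow_succ]
      rw [e3, e3, hg.isom, hg.isom, hg.isom]
    have e6 : (g ^ 6) v = v := by
      have e7 : ∀ x, B x ((g ^ 6) v - v) = 0 := by
        intro x
        have e8 : g ^ 6 = g ^ 3 * g ^ 3 := by rw [← pow_add]
        rw [e8, map_sub, Module.End.mul_apply, ← e1, hiso]
        simp
      have := (nondeg_of_left hAlt (fun x hx => hNd.1 x hx)).2 _ e7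
      exact sub_eq_zero.mp this
    have e9 : t ^ 3 • (g ^ 3) v - v = v := by
      have h := congrArg (fun f : End F V => f v) h6
      simp only [LinearMap.sub_apply, LinearMap.smul_apply, Module.End.one_apply] at h
      rw [e6] at h
      exact h.symm
    set a : Fin 6 → F := ![-2, 0, 0, t ^ 3, 0, 0] with ha
    have e10 : ∑ i : Fin 6, a i • (g ^ (i : ℕ)) v = 0 := by
      rw [Fin.sum_univ_six]
      simp only [ha]
      simp
      have e11 : (2 : F) • v = v + v := two_smul F v
      rw [e11]
      rw [sub_eq_iff_eq_add] at e9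
      rw [add_comm]
      rw [e9]
      abel
    have := Fintype.linearIndependent_iff.mp hind a e10 0
    simp only [ha] at this
    have hne2 : (-2 : F) ≠ 0 := neg_ne_zero.mpr two_ne_zero'
    exact hne2 (by simpa using this)
  have hLfinal : ω ^ 3 - ω = l 0 • 1 := by
    have : L = l 0 • 1 := by rw [hLψ, hψ2, hl3, zero_smul, add_zero]
    exact this
  exact fieldStr_final hg c (l 0) t ω hωSA hLfinal hgω hT

end

end Cfsg.Agent.Lib.Cover2.SpT
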