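/-
The case where `g + g⁻¹` has no eigenvector.
-/
import Mathlib
import Cfsg.Agent.Lib.Cover2.SpT.Final

set_option autoImplicit false

namespace Cfsg.Agent.Lib.Cover2.SpT

open Module Polynomial

variable {F V : Type*} [Field F] [AddCommGroup V] [Module F V]
variable {B : LinearMap.BilinForm F V} {g gi T : End F V}

/-- Polynomial from coefficients. -/
noncomputable def polyOfFin {n : ℕ} (a : Fin n → F) : F[X] := ∑ i, C (a i) * X ^ (i : ℕ)

omit [Module F V] in
theorem polyOfFin_natDegree {n : ℕ} (hn : 0 < n) (a : Fin n → F) : (polyOfFin a).natDegree < n := by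
  by_cases h : polyOfFin a = 0
  · rw [h]; simpa using hn
  · have := degree_sum_fin_lt a
    rw [← polyOfFin, degree_eq_natDegree h] at this
    exact_mod_cast this

omit [Module F V] in
theorem polyOfFin_coeff {n : ℕ} (a : Fin n → F) (i : Fin n) : (polyOfFin a).coeff i = a i := by
  rw [polyOfFin, finsetSum_coeff, Finset.sum_eq_single i]
  · simp
  · intro j _ hj
    rw [coeff_C_mul, coeff_X_pow, if_neg, mul_zero]
    intro h
    exact hj (Fin.ext h.symm)
  · simp

theorem polyOfFin_aeval {n : ℕ} (a : Fin n → F) (T : End F V) (x : V) :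
    aeval T (polyOfFin a) x = ∑ i, a i • (T ^ (i : ℕ)) x := by
  simp [polyOfFin, map_sum, LinearMap.sum_apply, aeval_C, Module.algebraMap_end_apply]

theorem aeval_mul_apply (T : End F V) (p q : F[X]) (x : V) :
    aeval T (p * q) x = aeval T p (aeval T q x) := by
  rw [map_mul, Module.End.mul_apply]

theorem coprime_kill {p r : F[X]} (h : IsCoprime p r) {x : V} (h1 : aeval T p x = 0)
    (h2 : aeval T r x = 0) : x = 0 := by
  obtain ⟨a, b, hab⟩ := h
  have := congrArg (fun q => aeval T q x) hab
  simp only [map_add, LinearMap.add_apply, aeval_mul_apply, h1, h2, map_zero, add_zero, map_one,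
    Module.End.one_apply] at this
  exact this.symm

theorem commute_aeval {g T : End F V} (h : Commute g T) (p : F[X]) : Commute g (aeval T p) := by
  induction p using Polynomial.induction_on' with
  | add p q hp hq =>
    rw [map_add]
    exact hp.add_right hq
  | monomial n a =>
    rw [aeval_monomial, ← Algebra.smul_def]
    exact (h.pow_right n).smul_right a

section
variable [FiniteDimensional F V]

theorem ti_aeval [CharP F 3] (hAlt : B.IsAlt) (hT : SA B T) (x : V) (p q : F[X]) :
    B (aeval T p x) (aeval T q x) = 0 := by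
  rw [← hT.aeval q, ← aeval_mul_apply]
  exact (hT.aeval _).self_zero hAlt two_ne_zero' x

/-- Every vector is killed by a nonzero polynomial of degree at most `3`. -/
theorem cyclic_dep [CharP F 3] (hAlt : B.IsAlt) (hNd : B.Nondegenerate) (hdim : finrank F V = 6)
    (hT : SA B T) (v : V) : ∃ r : F[X], r ≠ 0 ∧ r.natDegree ≤ 3 ∧ aeval T r v = 0 := by
  have hti : ∀ x ∈ Submodule.span F (Set.range (fun i : Fin 4 => (T ^ (i : ℕ)) v)),
      ∀ y ∈ Submodule.span F (Set.range (fun i : Fin 4 => (T ^ (i : ℕ)) v)), B x y = 0 := by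
    apply ti_of_span
    rintro _ ⟨i, rfl⟩ _ ⟨j, rfl⟩
    have := ti_aeval hAlt hT v (X ^ (i : ℕ)) (X ^ (j : ℕ))
    simpa using this
  have hle := finrank_ti_le hAlt hNd hti
  have hnot : ¬ LinearIndependent F (fun i : Fin 4 => (T ^ (i : ℕ)) v) := by
    intro hli
    have := finrank_span_eq_card hli
    rw [this] at hle
    simp at hle
    omega
  rw [Fintype.not_linearIndependent_iff] at hnot
  obtain ⟨a, ha, i, hi⟩ := hnot
  refine ⟨polyOfFin a, ?_, ?_, ?_⟩
  · intro h
    have := polyOfFin_coeff a i
    rw [h] at this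
    simp at this
    exact hi this.symm
  · have := polyOfFin_natDegree (by norm_num) a
    omega
  · rw [polyOfFin_aeval, ha]

/-- An irreducible factor acting non-injectively. -/
theorem exists_irr_vector (T : End F V) (n : ℕ) : ∀ (r : F[X]), r.natDegree ≤ n → r ≠ 0 → ∀ v : V, v ≠ 0 →
    aeval T r v = 0 → ∃ p : F[X], Irreducible p ∧ p.natDegree ≤ n ∧ ∃ w : V, w ≠ 0 ∧ aeval T p w = 0 := by
  induction n using Nat.strong_induction_on with
  | _ n ih =>
    intro r hr hr0 v hv hrv
    have hunit : ¬ IsUnit r := by
      intro hu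
      obtain ⟨a, ha, rfl⟩ := Polynomial.isUnit_iff.mp hu
      have ha0 : a ≠ 0 := ha.ne_zero
      simp only [aeval_C, Module.algebraMap_end_apply] at hrv
      exact hv ((smul_eq_zero.mp hrv).resolve_left ha0)
    obtain ⟨p, hp, q, rfl⟩ := WfDvdMonoid.exists_irreducible_factor hunit hr0
    have hq0 : q ≠ 0 := right_ne_zero_of_mul hr0
    have hdeg := natDegree_mul hp.ne_zero hq0
    have hp1 := hp.natDegree_pos
    rw [aeval_mul_apply] at hrv
    by_cases hqv : aeval T q v = 0
    · obtain ⟨p', h1, h2, h3⟩ := ih (n - 1) (by omega) q (by omega) hq0 v hv hqv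
      exact ⟨p', h1, by omega, h3⟩
    · exact ⟨p, hp, by omega, _, hqv, hrv⟩

/-- Surjectivity on an invariant subspace. -/
theorem surj_on_inv {W : Submodule F V} (hinv : ∀ x ∈ W, T x ∈ W) {l : F}
    (hinj : ∀ x ∈ W, T x = l • x → x = 0) : ∀ z ∈ W, ∃ u ∈ W, T u - l • u = z := by
  intro z hz
  have hmap : ∀ x ∈ W, (T - l • 1) x ∈ W := by
    intro x hx
    simp only [LinearMap.sub_apply, LinearMap.smul_apply, Module.End.one_apply]
    exact W.sub_mem (hinv x hx) (W.smul_mem l hx)
  let f : W →ₗ[F] W := (T - l • 1).restrict hmap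
  have hfi : Function.Injective f := by
    rw [injective_iff_map_eq_zero]
    intro x hx
    have h1 : T x - l • (x : V) = 0 := by
      have := congrArg Subtype.val hx
      simpa [f, LinearMap.restrict_apply] using this
    exact Subtype.ext (hinj x x.2 (sub_eq_zero.mp h1))
  obtain ⟨u, hu⟩ := (LinearMap.injective_iff_surjective.mp hfi) ⟨z, hz⟩
  refine ⟨u, u.2, ?_⟩
  have := congrArg Subtype.val hu
  simpa [f, LinearMap.restrict_apply] using this

/-- Irreducible quadratic factors are impossible. -/
theorem no_deg_two [CharP F 3] (hAlt : B.IsAlt) (hNd : B.Nondegenerate) (hdim : finrank F V = 6)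
    (hT : SA B T) (hno : ∀ (t : F) (v : V), T v = t • v → v = 0) {p : F[X]} (hp2 : p.natDegree = 2)
    {w : V} (hw : w ≠ 0) (hpw : aeval T p w = 0) : False := by
  have hanti : ∀ x y, B x y = - B y x := fun x y => (LinearMap.BilinForm.IsAlt.neg_eq hAlt y x).symm
  have h2 : (2 : F) ≠ 0 := two_ne_zero'
  have hcoef : p.coeff 2 ≠ 0 := by
    rw [← hp2]
    intro h
    have := leadingCoeff_eq_zero.mp h
    rw [this] at hp2
    simp at hp2
  have hq : p = C (p.coeff 2) * X ^ 2 + C (p.coeff 1) * X + C (p.coeff 0) :=
    eq_quadratic_of_degree_le_two (by exact_mod_cast natDegree_le_iff_degree_le.mp hp2.le)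
  have hT2 : T (T w) = (-(p.coeff 2)⁻¹ * p.coeff 1) • T w + (-(p.coeff 2)⁻¹ * p.coeff 0) • w := by
    rw [hq] at hpw
    simp only [map_add, map_mul, aeval_C, aeval_X, aeval_X_pow, LinearMap.add_apply, Module.End.mul_apply,
      Module.algebraMap_end_apply, sq] at hpw
    have e : (p.coeff 2) • T (T w) = - ((p.coeff 1) • T w + (p.coeff 0) • w) := by
      rw [eq_neg_iff_add_eq_zero, ← add_assoc]
      exact hpw
    have e2 := congrArg (fun y => (p.coeff 2)⁻¹ • y) e
    simp only [smul_smul, inv_mul_cancel₀ hcoef, one_smul, smul_neg, smul_add] at e2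
    rw [e2, neg_add, neg_mul, neg_mul, neg_smul, neg_smul]
  set W2 := Submodule.span F {w, T w} with hW2
  have hinv : ∀ x ∈ W2, T x ∈ W2 := by
    intro x hx
    obtain ⟨a, b, rfl⟩ := Submodule.mem_span_pair.mp hx
    rw [map_add, map_smul, map_smul, hT2]
    refine Submodule.add_mem _ (Submodule.smul_mem _ _ (Submodule.subset_span (by simp))) ?_
    refine Submodule.smul_mem _ _ (Submodule.add_mem _ ?_ ?_)
    · exact Submodule.smul_mem _ _ (Submodule.subset_span (by simp))
    · exact Submodule.smul_mem _ _ (Submodule.subset_span (by simp))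
  have hsz : B (T w) w = 0 := hT.self_zero hAlt h2 w
  have hzs : B w (T w) = 0 := by rw [hanti, hsz, neg_zero]
  have hind2 : LinearIndependent F ![w, T w] := by
    rw [LinearIndependent.pair_iff]
    intro s t hst
    by_cases ht : t = 0
    · subst ht
      simp only [zero_smul, add_zero] at hst
      exact ⟨(smul_eq_zero.mp hst).resolve_right hw, rfl⟩
    · exfalso
      apply hw
      apply hno (-(t⁻¹ * s)) w
      have e2 := congrArg (fun y => t⁻¹ • y) hst
      simp only [smul_add, smul_smul, inv_mul_cancel₀ ht, one_smul, smul_zero] at e2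
      rw [neg_smul]
      exact eq_neg_of_add_eq_zero_right e2
  have hfr2 : finrank F W2 = 2 := by
    have := finrank_span_eq_card hind2
    have e2 : Set.range ![w, T w] = {w, T w} := by
      simp [Matrix.range_cons, Matrix.range_empty]
      exact Set.pair_comm _ _
    rw [e2] at this
    simpa using this
  have hti : ∀ x ∈ W2, ∀ y ∈ W2, B x y = 0 := by
    apply ti_of_span
    rintro x (rfl | rfl) y (rfl | rfl)
    · exact hAlt _
    · exact hzs
    · exact hsz
    · exact hAlt _
  set O := B.orthogonal W2 with hO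
  have hfrO : finrank F O = 4 := by
    have := LinearMap.BilinForm.finrank_orthogonal hNd W2
    rw [hdim, hfr2] at this
    simpa using this
  have hmemO : ∀ y, y ∈ O ↔ ∀ u ∈ W2, B u y = 0 := by
    intro y
    rw [hO, LinearMap.BilinForm.mem_orthogonal_iff]
  have hle : W2 ≤ O := by
    intro y hy
    rw [hmemO]
    intro u hu
    exact hti u hu y hy
  have hlt : W2 < O := by
    refine lt_of_le_of_ne hle ?_
    intro h
    rw [← h, hfr2] at hfrO
    omega
  obtain ⟨a, haO, haW⟩ := SetLike.exists_of_lt hlt
  obtain ⟨b, hb1, hab⟩ := exists_sep hAlt hNd haW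
  have hbO : b ∈ O := (hmemO b).mpr hb1
  have hOinv : ∀ y ∈ O, T y ∈ O := by
    intro y hy
    rw [hmemO] at hy ⊢
    intro u hu
    rw [← hT, hy _ (hinv u hu)]
  set l := B (T a) b with hl
  set z := T a - l • a with hz
  have hzO : z ∈ O := O.sub_mem (hOinv a haO) (O.smul_mem l haO)
  have hw0 : w ∈ W2 := Submodule.subset_span (by simp)
  have hTw : T w ∈ W2 := Submodule.subset_span (by simp)
  have haw : B w a = 0 := (hmemO a).mp haO w hw0
  have haTw : B (T w) a = 0 := (hmemO a).mp haO _ hTw
  have hbw : B w b = 0 := hb1 w hw0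
  have hbTw : B (T w) b = 0 := hb1 _ hTw
  have hind4 : LinearIndependent F ![w, T w, a, b] := by
    rw [Fintype.linearIndependent_iff]
    intro v hv
    rw [Fin.sum_univ_four] at hv
    simp only [Matrix.cons_val_zero, Matrix.cons_val_one, Matrix.cons_val, Matrix.head_cons, Matrix.tail_cons] at hv
    have pair : ∀ u : V, v 0 * B w u + v 1 * B (T w) u + v 2 * B a u + v 3 * B b u = 0 := by
      intro u
      have := congrArg (fun y => B y u) hv
      simpa using this
    have hba : B b a = -1 := by rw [hanti, hab]
    have c2 := pair b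
    have c3 := pair a
    simp only [hbw, hbTw, hab, hAlt b, haw, haTw, hAlt a, hba] at c2 c3
    have v2 : v 2 = 0 := by simpa using c2
    have v3 : v 3 = 0 := by simpa using c3
    rw [v2, v3, zero_smul, zero_smul, add_zero, add_zero] at hv
    have hpr := LinearIndependent.pair_iff.mp hind2 (v 0) (v 1) hv
    intro i
    fin_cases i
    · exact hpr.1
    · exact hpr.2
    · exact v2
    · exact v3
  have hspan : Submodule.span F (Set.range ![w, T w, a, b]) = O := by
    apply Submodule.eq_of_le_of_finrank_eq
    · rw [Submodule.span_le]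
      rintro _ ⟨i, rfl⟩
      fin_cases i
      · exact hle hw0
      · exact hle hTw
      · exact haO
      · exact hbO
    · rw [finrank_span_eq_card hind4, hfrO]
      simp
  have hzz : z ∈ W2 := by
    have e := LinearMap.BilinForm.orthogonal_orthogonal hNd hAlt.isRefl W2
    rw [← e, LinearMap.BilinForm.mem_orthogonal_iff]
    intro y hy
    rw [← hO, ← hspan] at hy
    induction hy using Submodule.span_induction with
    | mem y hy =>
      obtain ⟨i, rfl⟩ := hy
      have t1 : B a z = 0 := by
        have t0 : B a (T a) = 0 := by rw [hanti, hT.self_zero hAlt h2 a, neg_zero]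
        simp only [hz, map_sub, map_smul, t0, hAlt a, smul_eq_mul]
        simp
      have t2 : B b z = 0 := by
        have t0 : B b (T a) = - l := by rw [hanti]
        have t3 : B b a = -1 := by rw [hanti, hab]
        simp only [hz, map_sub, map_smul, t0, t3, smul_eq_mul]
        ring
      fin_cases i
      · exact (hmemO z).mp hzO w hw0
      · exact (hmemO z).mp hzO _ hTw
      · exact t1
      · exact t2
    | zero =>
      change B 0 z = 0
      simp
    | add x y _ _ hx hy =>
      have hx' : B x z = 0 := hx
      have hy' : B y z = 0 := hy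
      change B (x + y) z = 0
      rw [map_add, LinearMap.add_apply, hx', hy', add_zero]
    | smul r x _ hx =>
      have hx' : B x z = 0 := hx
      change B (r • x) z = 0
      simp [hx']
  obtain ⟨u, huW, huz⟩ := surj_on_inv hinv (l := l) (fun x _ hx => hno l x hx) z hzz
  have hfin : a - u = 0 := by
    apply hno l
    rw [map_sub, smul_sub]
    have e1 : T a = z + l • a := by rw [hz]; abel
    have e2 : T u = z + l • u := by rw [← huz]; abel
    rw [e1, e2]
    abel
  apply haW
  rw [sub_eq_zero.mp hfin]
  exact huW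

/-- The main theorem of this file. -/
theorem fieldStr_of_no_eigen [CharP F 3] [Finite F] (hAlt : B.IsAlt) (hNd : B.Nondegenerate)
    (hdim : finrank F V = 6) {g gi : End F V} (hg : IsoPair B g gi) (c : F)
    (hc : ∀ ρ : F, ρ ^ 3 - ρ ≠ c) (hno : ∀ (t : F) (v : V), (g + gi) v = t • v → v = 0) :
    FieldStr B c g := by
  set T := g + gi with hTdef
  have hT : SA B T := hg.sa_T
  have hanti : ∀ x y, B x y = - B y x := fun x y => (LinearMap.BilinForm.IsAlt.neg_eq hAlt y x).symm
  haveI : Nontrivial V := Module.nontrivial_of_finrank_pos (by rw [hdim]; norm_num)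
  obtain ⟨v, hv⟩ := exists_ne (0 : V)
  obtain ⟨r, hr0, hr3, hrv⟩ := cyclic_dep hAlt hNd hdim hT v
  obtain ⟨p, hp, hp3, w, hw, hpw⟩ := exists_irr_vector T 3 r hr3 hr0 v hv hrv
  have hpdeg : p.natDegree = 3 := by
    have hpos := hp.natDegree_pos
    have h1 : p.natDegree ≠ 1 := by
      intro h1
      obtain ⟨a, ha, b, rfl⟩ := Polynomial.natDegree_eq_one.mp h1
      apply hw
      apply hno (-(a⁻¹ * b)) w
      simp only [map_add, map_mul, aeval_C, aeval_X, LinearMap.add_apply, Module.End.mul_apply,
        Module.algebraMap_end_apply] at hpw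
      have e2 := congrArg (fun y => a⁻¹ • y) hpw
      simp only [smul_add, smul_smul, inv_mul_cancel₀ ha, one_smul, smul_zero] at e2
      rw [neg_smul]
      exact eq_neg_of_add_eq_zero_left e2
    have h2 : p.natDegree ≠ 2 := fun h2 => no_deg_two hAlt hNd hdim hT hno h2 hw hpw
    omega
  -- the cyclic subspace
  have hli : LinearIndependent F (fun i : Fin 3 => (T ^ (i : ℕ)) w) := by
    rw [Fintype.linearIndependent_iff]
    intro a ha
    have hr : aeval T (polyOfFin a) w = 0 := by rw [polyOfFin_aeval, ha]
    have hrd := polyOfFin_natDegree (n := 3) (by norm_num) a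
    have hz : polyOfFin a = 0 := by
      by_contra hne
      have hnd : ¬ p ∣ polyOfFin a := by
        intro hd
        have := natDegree_le_of_dvd hd hne
        omega
      exact hw (coprime_kill (hp.coprime_iff_not_dvd.mpr hnd) hpw hr)
    intro i
    have := polyOfFin_coeff a i
    rw [hz] at this
    simpa using this.symm
  set W := Submodule.span F (Set.range (fun i : Fin 3 => (T ^ (i : ℕ)) w)) with hW
  have hfrW : finrank F W = 3 := by
    rw [hW, finrank_span_eq_card hli]
    simp
  have hti : ∀ x ∈ W, ∀ y ∈ W, B x y = 0 := by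
    apply ti_of_span
    rintro _ ⟨i, rfl⟩ _ ⟨j, rfl⟩
    have := ti_aeval hAlt hT w (X ^ (i : ℕ)) (X ^ (j : ℕ))
    simpa using this
  have hfrO : finrank F (B.orthogonal W) = 3 := by
    have := LinearMap.BilinForm.finrank_orthogonal hNd W
    rw [hdim, hfrW] at this
    simpa using this
  have hWO : W = B.orthogonal W := by
    apply Submodule.eq_of_le_of_finrank_eq
    · intro y hy
      rw [LinearMap.BilinForm.mem_orthogonal_iff]
      intro u hu
      exact hti u hu y hy
    · rw [hfrW, hfrO]
  have hpkill : ∀ y ∈ W, aeval T p y = 0 := by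
    intro y hy
    induction hy using Submodule.span_induction with
    | mem y hy =>
      obtain ⟨i, rfl⟩ := hy
      have e : Commute (aeval T p) (T ^ (i : ℕ)) := (commute_aeval (Commute.refl T) p).symm.pow_right _
      have := congrArg (fun f : End F V => f w) e.eq
      simp only [Module.End.mul_apply, hpw, map_zero] at this
      exact this
    | zero => simp
    | add x y _ _ hx hy => rw [map_add, hx, hy, add_zero]
    | smul r x _ hx => rw [map_smul, hx, smul_zero]
  have hinW : ∀ x, aeval T p x ∈ W := by
    intro x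
    rw [hWO, LinearMap.BilinForm.mem_orthogonal_iff]
    intro u hu
    change B u (aeval T p x) = 0
    rw [← hT.aeval, hpkill u hu]
    simp
  have hpp : ∀ x, aeval T (p * p) x = 0 := by
    intro x
    rw [aeval_mul_apply]
    exact hpkill _ (hinW x)
  have hp0 : aeval T p = 0 := by
    ext u
    obtain ⟨s, hs0, hs3, hsu⟩ := cyclic_dep hAlt hNd hdim hT u
    by_cases hd : p ∣ s
    · obtain ⟨s', rfl⟩ := hd
      have hs'0 : s' ≠ 0 := right_ne_zero_of_mul hs0
      have hdeg := natDegree_mul hp.ne_zero hs'0
      have hs'd : s'.natDegree = 0 := by omega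
      rw [eq_C_of_natDegree_eq_zero hs'd] at hsu hs'0
      have hne : s'.coeff 0 ≠ 0 := by
        intro h
        rw [h] at hs'0
        simp at hs'0
      rw [mul_comm, aeval_mul_apply] at hsu
      simp only [aeval_C, Module.algebraMap_end_apply] at hsu
      simpa using (smul_eq_zero.mp hsu).resolve_left hne
    · have hcop : IsCoprime (p * p) s := by
        have := hp.coprime_iff_not_dvd.mpr hd
        exact IsCoprime.mul_left this this
      have := coprime_kill hcop (hpp u) hsu
      rw [this]
      simp
  -- the Artin-Schreier polynomial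
  set R : F[X] := X ^ 3 - X - C c with hR
  have hRdeg : R.natDegree = 3 := by
    rw [hR]
    compute_degree!
  have hRirr : Irreducible R := by
    apply irreducible_of_degree_le_three_of_not_isRoot
    · rw [hRdeg]; simp
    · intro x hx
      simp only [hR, IsRoot.def, eval_sub, eval_pow, eval_X, eval_C] at hx
      exact hc x (sub_eq_zero.mp hx)
  obtain ⟨a, s, hs⟩ := Cfsg.Agent.Lib.Cover2.exists_comp_dvd hRirr hp (by rw [hRdeg, hpdeg])
  set ω := aeval T a with hω
  have hωR : aeval ω R = 0 := by
    rw [hω, ← aeval_comp, hs, map_mul, hp0, zero_mul]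
  refine ⟨ω, 0, hT.aeval a, ?_, ?_⟩
  · simp only [hR, map_sub, aeval_X, aeval_X_pow, aeval_C] at hωR
    rw [sub_eq_zero] at hωR
    rw [hωR, Module.algebraMap_end_eq_smul_id]
    rfl
  · intro x
    have e : Commute g ω := commute_aeval hg.comm_T a
    have := congrArg (fun f : End F V => f x) e.eq
    simpa using this

end

end Cfsg.Agent.Lib.Cover2.SpT
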