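/-
The Fitting decomposition for `g + g⁻¹ - t`, and the semisimple case.
-/
import Mathlib
import Cfsg.Agent.Lib.Cover2.SpT.Final

set_option autoImplicit false

namespace Cfsg.Agent.Lib.Cover2.SpT

open Module Polynomial Filter

variable {F V : Type*} [Field F] [AddCommGroup V] [Module F V]
variable {B : LinearMap.BilinForm F V} {g gi : End F V}

omit [Module F V] in
theorem split2_of_smul {ε : F} (hε : ε ≠ 0) [Module F V] {B : LinearMap.BilinForm F V} {g : End F V}
    (h : Split2 B (ε • g)) : Split2 B g := by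
  obtain ⟨e, f, hef, h1, h2⟩ := h
  refine ⟨e, f, hef, ?_, ?_⟩
  · have := Submodule.smul_mem _ ε⁻¹ h1
    simpa [smul_smul, inv_mul_cancel₀ hε] using this
  · have := Submodule.smul_mem _ ε⁻¹ h2
    simpa [smul_smul, inv_mul_cancel₀ hε] using this

theorem fieldStr_of_smul {ε : F} (hε : ε ≠ 0) {c : F} (h : FieldStr B c (ε • g)) : FieldStr B c g := by
  obtain ⟨ω, k, h1, h2, h3⟩ := h
  refine ⟨ω, k, h1, h2, fun x => ?_⟩
  have := h3 x
  simp only [LinearMap.smul_apply, map_smul] at this
  have e : ε • (g (ω x) - ω (g x) - k • g x) = 0 := by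
    linear_combination (norm := module) this
  have e2 := (smul_eq_zero.mp e).resolve_left hε
  rw [sub_sub, sub_eq_zero] at e2
  exact e2

section
variable [FiniteDimensional F V] [CharP F 3]

/-- Fitting: `Split2` or nilpotent. -/
theorem split_or_nilpotent (hAlt : B.IsAlt) (hNd : B.Nondegenerate) (hdim : finrank F V = 6)
    (hg : IsoPair B g gi) (t : F) {v : V} (hv : v ≠ 0) (hTv : (g + gi) v = t • v) :
    Split2 B g ∨ ∃ n : ℕ, ((g + gi) - t • 1) ^ n = 0 := by
  set N := (g + gi) - t • 1 with hN
  have hNSA : SA B N := hg.sa_T.sub (SA.one.smul t)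
  have hcomm : Commute g N := hg.comm_T.sub_right ((Commute.one_right g).smul_right t)
  obtain ⟨n, hn, hn1⟩ := (N.eventually_isCompl_ker_pow_range_pow.and (eventually_ge_atTop 1)).exists
  by_cases hR : LinearMap.range (N ^ n) = ⊥
  · right
    exact ⟨n, LinearMap.range_eq_bot.mp hR⟩
  · left
    have hK : LinearMap.ker (N ^ n) ≠ ⊥ := by
      intro h0
      have hvk : v ∈ LinearMap.ker (N ^ n) := by
        obtain ⟨m, rfl⟩ := Nat.exists_eq_add_of_le' hn1
        rw [LinearMap.mem_ker, pow_succ, Module.End.mul_apply]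
        have : N v = 0 := by simp [hN, hTv]
        rw [this, map_zero]
      rw [h0] at hvk
      exact hv (by simpa using hvk)
    refine split_of_isCompl hAlt hNd hdim hn ?_ hK hR ?_ ?_
    · rintro x hx _ ⟨z, rfl⟩
      rw [← (hNSA.pow n) x z, LinearMap.mem_ker.mp hx]
      simp
    · intro x hx
      rw [LinearMap.mem_ker] at hx ⊢
      have := congrArg (fun f : End F V => f x) (hcomm.pow_right n).eq
      simp only [Module.End.mul_apply, hx, map_zero] at this
      exact this.symm
    · rintro _ ⟨z, rfl⟩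
      have := congrArg (fun f : End F V => f z) (hcomm.pow_right n).eq
      simp only [Module.End.mul_apply] at this
      exact ⟨g z, this.symm⟩

/-- Nilpotent self-adjoint operators on a `6`-space have cube zero. -/
theorem cube_zero_of_nilpotent (hAlt : B.IsAlt) (hNd : B.Nondegenerate) (hdim : finrank F V = 6)
    {N : End F V} (hN : SA B N) {n : ℕ} (h : N ^ n = 0) : N ^ 3 = 0 := by
  classical
  by_contra hne
  have hex : ∃ m, N ^ m = 0 := ⟨n, h⟩
  set m := Nat.find hex with hm
  have hm0 : N ^ m = 0 := Nat.find_spec hex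
  have hm4 : 4 ≤ m := by
    by_contra hlt
    apply hne
    have : 3 = m + (3 - m) := by omega
    rw [this, pow_add, hm0, zero_mul]
  have hm1 : N ^ (m - 1) ≠ 0 := Nat.find_min hex (by omega)
  obtain ⟨y, hy⟩ : ∃ y, (N ^ (m - 1)) y ≠ 0 := by
    by_contra hc
    push Not at hc
    exact hm1 (LinearMap.ext hc)
  set x := (N ^ (m - 4)) y with hx
  have h3 : (N ^ 3) x ≠ 0 := by
    rw [hx, ← Module.End.mul_apply, ← pow_add]
    have : 3 + (m - 4) = m - 1 := by omega
    rwa [this]
  have h4 : (N ^ (3 + 1)) x = 0 := by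
    rw [hx, ← Module.End.mul_apply, ← pow_add]
    have : 3 + 1 + (m - 4) = m := by omega
    rw [this, hm0]
    simp
  have hli := chain_indep N x 3 h3 h4
  have hti : ∀ a ∈ Submodule.span F (Set.range (fun i : Fin 4 => (N ^ (i : ℕ)) x)),
      ∀ b ∈ Submodule.span F (Set.range (fun i : Fin 4 => (N ^ (i : ℕ)) x)), B a b = 0 := by
    apply ti_of_span
    rintro _ ⟨i, rfl⟩ _ ⟨j, rfl⟩
    simp only
    rw [← (hN.pow j) _ x, ← Module.End.mul_apply, ← pow_add]
    exact (hN.pow _).self_zero hAlt two_ne_zero' x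
  have hle := finrank_ti_le hAlt hNd hti
  rw [finrank_span_eq_card hli, hdim] at hle
  simp at hle

/-- `g + g⁻¹` scalar. -/
theorem split_of_T_scalar (hAlt : B.IsAlt) (hNd : B.Nondegenerate) (hdim : finrank F V = 6)
    (hg : IsoPair B g gi) (t : F) (hN : (g + gi) - t • 1 = 0) : Split2 B g := by
  have hanti : ∀ x y, B x y = - B y x := fun x y => (LinearMap.BilinForm.IsAlt.neg_eq hAlt y x).symm
  have hgi : ∀ x, gi x = t • x - g x := by
    intro x
    have := congrArg (fun f : End F V => f x) hN
    simp only [LinearMap.sub_apply, LinearMap.add_apply, LinearMap.smul_apply, Module.End.one_apply,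
      LinearMap.zero_apply] at this
    linear_combination (norm := module) this
  have hgg : ∀ x, g (g x) = t • g x - x := by
    intro x
    have := hg.right x
    rw [hgi, map_sub, map_smul] at this
    linear_combination (norm := module) -this
  by_cases hex : ∃ v, B v (g v) ≠ 0
  · obtain ⟨v, hv⟩ := hex
    refine ⟨v, (B v (g v))⁻¹ • g v, ?_, ?_, ?_⟩
    · rw [map_smul, smul_eq_mul, inv_mul_cancel₀ hv]
    · refine Submodule.mem_span_pair.mpr ⟨0, B v (g v), ?_⟩
      rw [zero_smul, zero_add, smul_smul, mul_inv_cancel₀ hv, one_smul]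
    · refine Submodule.mem_span_pair.mpr ⟨-(B v (g v))⁻¹, t, ?_⟩
      rw [map_smul, hgg, smul_sub, smul_smul, smul_smul, neg_smul, mul_comm t]
      abel
  · push Not at hex
    have hpol : ∀ x y, B x (g y) = - B y (g x) := by
      intro x y
      have h1 := hex (x + y)
      simp only [map_add, LinearMap.add_apply, hex x, hex y, zero_add, add_zero] at h1
      exact eq_neg_of_add_eq_zero_right h1
    have hggi : ∀ y, g y = gi y := by
      intro y
      have key : ∀ x, B x (g y - gi y) = 0 := by
        intro x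
        rw [map_sub, sub_eq_zero, hpol, ← hanti, hg.adj]
      exact sub_eq_zero.mp ((nondeg_of_left hAlt (fun x hx => hNd.1 x hx)).2 _ key)
    have hsc : ∀ y, g y = (2 : F)⁻¹ • t • y := by
      intro y
      have h1 := hgi y
      rw [← hggi] at h1
      have h2 : (2 : F) • g y = t • y := by
        rw [two_smul]
        nth_rw 1 [h1]
        abel
      rw [← h2, smul_smul, inv_mul_cancel₀ two_ne_zero', one_smul]
    haveI : Nontrivial V := Module.nontrivial_of_finrank_pos (by rw [hdim]; norm_num)
    obtain ⟨e, he⟩ := exists_ne (0 : V)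
    obtain ⟨f', hf'⟩ : ∃ f', B e f' ≠ 0 := by
      by_contra hc
      push Not at hc
      exact he (hNd.1 e hc)
    refine ⟨e, (B e f')⁻¹ • f', ?_, ?_, ?_⟩
    · rw [map_smul, smul_eq_mul, inv_mul_cancel₀ hf']
    · rw [hsc]
      exact Submodule.smul_mem _ _ (Submodule.smul_mem _ _ (Submodule.subset_span (by simp)))
    · rw [hsc]
      exact Submodule.smul_mem _ _ (Submodule.smul_mem _ _ (Submodule.subset_span (by simp)))

end

end Cfsg.Agent.Lib.Cover2.SpT
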