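/-
Isometries with `h³ = 1` and `1 + h + h² ≠ 0`.
-/
import Mathlib
import Cfsg.Agent.Lib.Cover2.SpT.Final

set_option autoImplicit false

namespace Cfsg.Agent.Lib.Cover2.SpT

open Module Polynomial

variable {F V : Type*} [Field F] [AddCommGroup V] [Module F V]
variable {B : LinearMap.BilinForm F V} {h hi : End F V}

section
variable [CharP F 3] [FiniteDimensional F V]

/-- A vector `x` with `(1+h+h²)x ≠ 0` is not in the span of `hx, h²x`. -/
theorem not_mem_span_of_sum_ne (h3 : h ^ 3 = 1) (x : V) (hx : (1 + h + h ^ 2 : End F V) x ≠ 0) :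
    x ∉ Submodule.span F {h x, h (h x)} := by
  intro hmem
  obtain ⟨α, β, hab⟩ := Submodule.mem_span_pair.mp hmem
  have e30 : (3 : End F V) = 0 := end_three_eq_zero
  set n : End F V := h - 1 with hn
  have en2 : n ^ 2 = 1 + h + h ^ 2 := by
    have : n ^ 2 = 1 + h + h ^ 2 - (3 : End F V) * h := by
      rw [hn]; noncomm_ring
    rw [this, e30]; simp
  have en3 : n ^ 3 = 0 := by
    have e : n ^ 3 = h ^ 3 + (-1) ^ 3 := by
      rw [hn, sub_eq_add_neg, add_cube_of_commute ((Commute.one_right h).neg_right)]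
    rw [e, h3]; norm_num
  have hc := chain_indep n x 2 (by rw [en2]; exact hx) (by
    have : (2 + 1 : ℕ) = 3 := rfl
    rw [this, en3]; simp)
  have e1 : (n ^ 1) x = h x - x := by simp [hn]
  have e2 : (n ^ 2) x = h (h x) + h x + x := by
    rw [en2]; simp [sq]; abel
  have hsum : ∑ i : Fin 3, (![α - 2 * β - 1, α - β, β] i) • (n ^ (i : ℕ)) x = 0 := by
    rw [Fin.sum_univ_three]
    simp only [Fin.val_zero, Fin.val_one, Fin.val_two, pow_zero, Module.End.one_apply]
    simp only [Matrix.cons_val_zero, Matrix.cons_val_one, Matrix.cons_val, Matrix.head_cons, Matrix.tail_cons]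
    rw [e1, e2]
    linear_combination (norm := module) hab
  have h0 := Fintype.linearIndependent_iff.mp hc _ hsum
  have a0 := h0 0
  have a1 := h0 1
  have a2 := h0 2
  simp only [Matrix.cons_val_zero, Matrix.cons_val_one, Matrix.cons_val, Matrix.head_cons, Matrix.tail_cons] at a0 a1 a2
  rw [a2] at a0 a1
  rw [sub_zero] at a1
  rw [a1] at a0
  simp at a0

/-- Existence of the special pair. -/
theorem exists_gram_pair (hAlt : B.IsAlt) (hNd : B.Nondegenerate) (hg : IsoPair B h hi)
    (h3 : h ^ 3 = 1) (hS : 1 + h + h ^ 2 ≠ 0) :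
    ∃ e f, B e (h e) = 0 ∧ B f (h f) = 0 ∧ B e f = 1 ∧ B (h e) f = 0 ∧ B (h (h e)) f = 0 := by
  have hh3 : ∀ x, h (h (h x)) = x := by
    intro x
    have := congrArg (fun f : End F V => f x) h3
    simpa [pow_succ] using this
  have hiso := hg.isom
  have hadj : ∀ x y, B (h x) y = B x (h (h y)) := by
    intro x y; rw [← hiso x (h (h y)), hh3]
  have hadj2 : ∀ x y, B (h (h x)) y = B x (h y) := by
    intro x y; rw [hadj, hadj, hh3]
  have hanti : ∀ x y, B x y = - B y x := fun x y => (LinearMap.BilinForm.IsAlt.neg_eq hAlt y x).symm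
  have hsep : ∀ x, (1 + h + h ^ 2 : End F V) x ≠ 0 → ∃ f, B (h x) f = 0 ∧ B (h (h x)) f = 0 ∧ B x f = 1 := by
    intro x hx
    obtain ⟨f, hf, hxf⟩ := exists_sep hAlt hNd (not_mem_span_of_sum_ne h3 x hx)
    exact ⟨f, hf _ (Submodule.subset_span (by simp)), hf _ (Submodule.subset_span (by simp)), hxf⟩
  have e3 : (3 : F) = 0 := three_eq_zero
  obtain ⟨e0, he0⟩ : ∃ e0, (1 + h + h ^ 2 : End F V) e0 ≠ 0 := by
    by_contra hc
    push Not at hc
    exact hS (LinearMap.ext hc)
  obtain ⟨f0, hf1, hf2, hf3⟩ := hsep e0 he0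
  set α := B e0 (h e0) with hα
  set s : V := h f0 - h (h f0) with hs
  set e : V := e0 - α • s with he
  have hSs : (1 + h + h ^ 2 : End F V) s = 0 := by
    simp only [hs, sq, LinearMap.add_apply, Module.End.one_apply, Module.End.mul_apply, map_sub, hh3]
    abel
  have hSe : (1 + h + h ^ 2 : End F V) e ≠ 0 := by
    rw [he, map_sub, map_smul, hSs, smul_zero, sub_zero]
    exact he0
  have hee : B e (h e) = 0 := by
    simp only [he, hs, map_sub, map_smul, hh3, LinearMap.sub_apply, LinearMap.smul_apply, smul_eq_mul]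
    have t1 : B e0 (h (h f0)) = 0 := by rw [← hadj, hf1]
    have t2 : B e0 (h f0) = 0 := by rw [← hadj2, hf2]
    have t3 : B (h f0) (h e0) = - 1 := by rw [hiso, hanti, hf3]
    have t4 : B (h (h f0)) (h e0) = 0 := by rw [hiso, hanti, t2, neg_zero]
    have t5 : B (h f0) (h (h f0)) = B f0 (h f0) := by rw [hiso]
    have t6 : B (h f0) f0 = - B f0 (h f0) := hanti _ _
    have t7 : B (h (h f0)) (h (h f0)) = 0 := hAlt _
    have t8 : B (h (h f0)) f0 = B f0 (h f0) := hadj2 _ _
    simp only [t1, t2, t3, t4, t5, t6, t7, t8, hf3, ← hα]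
    linear_combination (α + α * α * B f0 (h f0)) * e3
  have hee' : B (h e) (h (h e)) = 0 := by rw [hiso, hee]
  have he2 : B e (h (h e)) = 0 := by rw [← hadj, hanti, hee, neg_zero]
  obtain ⟨f1, hf1a, hf1b, hf1c⟩ := hsep e hSe
  set β := B f1 (h f1) with hβ
  refine ⟨e, f1 - β • h e, hee, ?_, ?_, ?_, ?_⟩
  · simp only [map_sub, map_smul, LinearMap.sub_apply, LinearMap.smul_apply, smul_eq_mul]
    have t1 : B f1 (h (h e)) = 0 := by rw [hanti, hf1b, neg_zero]
    have t2 : B (h e) (h f1) = 1 := by rw [hiso, hf1c]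
    simp only [t1, t2, hee', ← hβ]
    ring
  · simp only [map_sub, map_smul, smul_eq_mul, hf1c, hee]
    ring
  · simp only [map_sub, map_smul, smul_eq_mul, hf1a, hAlt (h e)]
    ring
  · have t1 : B (h (h e)) (h e) = 0 := by rw [hanti, hee', neg_zero]
    simp only [map_sub, map_smul, smul_eq_mul, hf1b, t1]
    ring

/-- The projection onto a hyperbolic plane. -/
noncomputable def hypProj (B : LinearMap.BilinForm F V) (a b : V) : End F V :=
  (B.flip b).smulRight a - (B.flip a).smulRight b

omit [CharP F 3] [FiniteDimensional F V] in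
theorem hypProj_apply (a b x : V) : hypProj B a b x = B x b • a - B x a • b := by
  simp [hypProj]

omit [CharP F 3] [FiniteDimensional F V] in
theorem hypProj_sa (hAlt : B.IsAlt) (a b : V) : SA B (hypProj B a b) := by
  intro x y
  have hanti : ∀ x y, B x y = - B y x := fun x y => (LinearMap.BilinForm.IsAlt.neg_eq hAlt y x).symm
  simp only [hypProj_apply, map_sub, map_smul, LinearMap.sub_apply, LinearMap.smul_apply, smul_eq_mul]
  rw [hanti y b, hanti y a]
  ring

omit [CharP F 3] [FiniteDimensional F V] in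
theorem hypProj_self (hAlt : B.IsAlt) {a b : V} (hab : B a b = 1) (x : V) :
    hypProj B a b (hypProj B a b x) = hypProj B a b x := by
  have hba : B b a = -1 := by rw [← LinearMap.BilinForm.IsAlt.neg_eq hAlt a b, hab]
  rw [hypProj_apply]
  simp only [hypProj_apply, map_sub, map_smul, LinearMap.sub_apply, LinearMap.smul_apply, smul_eq_mul,
    hab, hba, hAlt a, hAlt b]
  simp

omit [CharP F 3] [FiniteDimensional F V] in
theorem hypProj_orth {a b a' b' : V} (h1 : B a a' = 0) (h2 : B a b' = 0) (h3 : B b a' = 0) (h4 : B b b' = 0)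
    (x : V) : hypProj B a' b' (hypProj B a b x) = 0 := by
  rw [hypProj_apply]
  simp only [hypProj_apply, map_sub, map_smul, LinearMap.sub_apply, LinearMap.smul_apply, smul_eq_mul,
    h1, h2, h3, h4]
  simp

omit [CharP F 3] [FiniteDimensional F V] in
theorem hypProj_map (hg : IsoPair B h hi) (a b x : V) :
    h (hypProj B a b x) = hypProj B (h a) (h b) (h x) := by
  simp only [hypProj_apply, map_sub, map_smul, hg.isom]

/-- With the special pair: a field structure. -/
theorem fieldStr_of_gram [Finite F] (hAlt : B.IsAlt) (hNd : B.Nondegenerate) (hdim : finrank F V = 6)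
    (hg : IsoPair B h hi) (c : F) (h3 : h ^ 3 = 1) {e f : V} (hee : B e (h e) = 0)
    (hff : B f (h f) = 0) (hef : B e f = 1) (h1 : B (h e) f = 0) (h2 : B (h (h e)) f = 0) :
    FieldStr B c h := by
  have hh3 : ∀ x, h (h (h x)) = x := by
    intro x
    have := congrArg (fun f : End F V => f x) h3
    simpa [pow_succ] using this
  have hiso := hg.isom
  have hadj : ∀ x y, B (h x) y = B x (h (h y)) := by
    intro x y; rw [← hiso x (h (h y)), hh3]
  have hadj2 : ∀ x y, B (h (h x)) y = B x (h y) := by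
    intro x y; rw [hadj, hadj, hh3]
  have hanti : ∀ x y, B x y = - B y x := fun x y => (LinearMap.BilinForm.IsAlt.neg_eq hAlt y x).symm
  -- Gram matrix
  set a0 := e with ha0
  set a1 := h e with ha1
  set a2 := h (h e) with ha2
  set b0 := f with hb0
  set b1 := h f with hb1
  set b2 := h (h f) with hb2
  have a01 : B a0 a1 = 0 := hee
  have a02 : B a0 a2 = 0 := by rw [ha2, ← hadj, hanti, ← ha0, a01, neg_zero]
  have a12 : B a1 a2 = 0 := by rw [ha1, ha2, hiso, ← ha1, a01]
  have a10 : B a1 a0 = 0 := by rw [hanti, a01, neg_zero]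
  have a20 : B a2 a0 = 0 := by rw [hanti, a02, neg_zero]
  have a21 : B a2 a1 = 0 := by rw [hanti, a12, neg_zero]
  have b01 : B b0 b1 = 0 := hff
  have b02 : B b0 b2 = 0 := by rw [hb2, ← hadj, hanti, ← hb0, b01, neg_zero]
  have b12 : B b1 b2 = 0 := by rw [hb1, hb2, hiso, ← hb1, b01]
  have b10 : B b1 b0 = 0 := by rw [hanti, b01, neg_zero]
  have b20 : B b2 b0 = 0 := by rw [hanti, b02, neg_zero]
  have b21 : B b2 b1 = 0 := by rw [hanti, b12, neg_zero]
  have ab00 : B a0 b0 = 1 := hef
  have ab10 : B a1 b0 = 0 := h1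
  have ab20 : B a2 b0 = 0 := h2
  have ab01 : B a0 b1 = 0 := by rw [hb1, ← hadj2]; exact h2
  have ab02 : B a0 b2 = 0 := by rw [hb2, ← hadj]; exact h1
  have ab11 : B a1 b1 = 1 := by rw [ha1, hb1, hiso, ← ha0, ← hb0, ab00]
  have ab12 : B a1 b2 = 0 := by rw [ha1, hb2, hiso, ← ha0, ← hb1, ab01]
  have ab21 : B a2 b1 = 0 := by rw [ha2, hb1, hiso, ← ha1, ← hb0, ab10]
  have ab22 : B a2 b2 = 1 := by rw [ha2, hb2, hiso, ← ha1, ← hb1, ab11]
  have ba00 : B b0 a0 = -1 := by rw [hanti, ab00]
  have ba01 : B b0 a1 = 0 := by rw [hanti, ab10, neg_zero]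
  have ba02 : B b0 a2 = 0 := by rw [hanti, ab20, neg_zero]
  have ba10 : B b1 a0 = 0 := by rw [hanti, ab01, neg_zero]
  have ba11 : B b1 a1 = -1 := by rw [hanti, ab11]
  have ba12 : B b1 a2 = 0 := by rw [hanti, ab21, neg_zero]
  have ba20 : B b2 a0 = 0 := by rw [hanti, ab02, neg_zero]
  have ba21 : B b2 a1 = 0 := by rw [hanti, ab12, neg_zero]
  have ba22 : B b2 a2 = -1 := by rw [hanti, ab22]
  -- independence
  have hind : LinearIndependent F ![a0, a1, a2, b0, b1, b2] := by
    rw [Fintype.linearIndependent_iff]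
    intro v hv
    rw [Fin.sum_univ_six] at hv
    simp only [Matrix.cons_val_zero, Matrix.cons_val_one, Matrix.cons_val, Matrix.head_cons, Matrix.tail_cons] at hv
    have pair : ∀ z : V, v 0 * B a0 z + v 1 * B a1 z + v 2 * B a2 z + v 3 * B b0 z + v 4 * B b1 z + v 5 * B b2 z = 0 := by
      intro z
      have := congrArg (fun y => B y z) hv
      simpa using this
    have c0 := pair b0
    have c1 := pair b1
    have c2 := pair b2
    have c3 := pair a0
    have c4 := pair a1
    have c5 := pair a2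
    simp only [ab00, ab10, ab20, ab01, ab11, ab21, ab02, ab12, ab22, b01, b02, b10, b12, b20, b21,
      a01, a02, a10, a12, a20, a21, ba00, ba01, ba02, ba10, ba11, ba12, ba20, ba21, ba22,
      hAlt a0, hAlt a1, hAlt a2, hAlt b0, hAlt b1, hAlt b2] at c0 c1 c2 c3 c4 c5
    intro i
    fin_cases i
    · simpa using c0
    · simpa using c1
    · simpa using c2
    · simpa using c3
    · simpa using c4
    · simpa using c5
  have hspan : Submodule.span F (Set.range ![a0, a1, a2, b0, b1, b2]) = ⊤ :=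
    hind.span_eq_top_of_card_eq_finrank (by simp [hdim])
  -- the three projections
  set p0 := hypProj B a0 b0 with hp0
  set p1 := hypProj B a1 b1 with hp1
  set p2 := hypProj B a2 b2 with hp2
  have hsum : ∀ x, p0 x + p1 x + p2 x = x := by
    intro x
    have key : ∀ z ∈ Submodule.span F (Set.range ![a0, a1, a2, b0, b1, b2]),
        B (x - (p0 x + p1 x + p2 x)) z = 0 := by
      intro z hz
      induction hz using Submodule.span_induction with
      | mem z hz =>
        obtain ⟨i, rfl⟩ := hz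
        fin_cases i <;>
        simp [hp0, hp1, hp2, hypProj_apply, ab00, ab10, ab20, ab01, ab11, ab21, ab02, ab12, ab22, b01, b02, b10, b12, b20, b21,
          a01, a02, a10, a12, a20, a21, ba00, ba01, ba02, ba10, ba11, ba12, ba20, ba21, ba22,
          hAlt a0, hAlt a1, hAlt a2, hAlt b0, hAlt b1, hAlt b2]
      | zero => simp
      | add a b _ _ ha hb => rw [map_add, ha, hb, add_zero]
      | smul r a _ ha => rw [map_smul, ha, smul_zero]
    have : x - (p0 x + p1 x + p2 x) = 0 := by
      apply hNd.1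
      intro y
      exact key y (by rw [hspan]; trivial)
    exact (sub_eq_zero.mp this).symm
  set w : End F V := p2 - p1 with hw
  have hwSA : SA B w := (hypProj_sa hAlt _ _).sub (hypProj_sa hAlt _ _)
  have hw1 : ∀ x, w (p1 x) = - p1 x := by
    intro x
    simp only [hw, LinearMap.sub_apply]
    rw [hp1, hypProj_self hAlt ab11, hp2, hypProj_orth a12 ab12 ba12 b12 x, zero_sub]
  have hw2 : ∀ x, w (p2 x) = p2 x := by
    intro x
    simp only [hw, LinearMap.sub_apply]
    rw [hp2, hypProj_self hAlt ab22, hp1, hypProj_orth a21 ab21 ba21 b21 x, sub_zero]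
  have hw3 : w ^ 3 - w = (0 : F) • 1 := by
    ext x
    have e : (w ^ 3) x = w x := by
      simp only [pow_succ, pow_zero, one_mul, Module.End.mul_apply]
      have e1 : ∀ x, w x = p2 x - p1 x := fun _ => rfl
      have w2 : ∀ x, w (w x) = p2 x + p1 x := by
        intro x
        rw [e1 x, map_sub, hw2, hw1, sub_neg_eq_add]
      rw [w2 x, map_add, hw2, hw1, e1]
      abel
    simp [e]
  have hgw : ∀ x, h (w x) = w (h x) + h x := by
    intro x
    have e1 : h (p0 x) = p1 (h x) := hypProj_map hg _ _ _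
    have e2 : h (p1 x) = p2 (h x) := hypProj_map hg _ _ _
    have e3 : h (p2 x) = p0 (h x) := by
      rw [hp2, hypProj_map hg, hp0, ha2, hb2, hh3, hh3]
    have e4 : w (h x) = h (p1 x) - h (p0 x) := by
      rw [e1, e2]; rfl
    have e5 : w x = p2 x - p1 x := rfl
    have e6 : h x = h (p0 x) + h (p1 x) + h (p2 x) := by
      rw [← map_add, ← map_add, hsum]
    rw [e4, e5, map_sub, e6]
    have h30 : (3 : F) • h (p1 x) = 0 := by rw [three_eq_zero, zero_smul]
    have e7 : (3 : F) • h (p1 x) = h (p1 x) + h (p1 x) + h (p1 x) := by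
      rw [show (3 : F) = 1 + 1 + 1 by norm_num, add_smul, add_smul, one_smul]
    rw [e7] at h30
    linear_combination (norm := module) - h30
  have hT : (h + hi) ^ 3 = (-1 : F) ^ 3 • 1 := by
    have e1 : hi ^ 3 = 1 := by
      have e2 : h ^ 3 * hi ^ 3 = 1 := by rw [← (hg.comm).mul_pow, hg.mul_inv, one_pow]
      rwa [h3, one_mul] at e2
    rw [add_cube_of_commute hg.comm, h3, e1]
    have e3 : (2 : End F V) = -1 := by
      have := end_three_eq_zero (F := F) (V := V)
      have e : (2 : End F V) + 1 = 3 := by norm_num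
      rw [this] at e
      exact eq_neg_of_add_eq_zero_left e
    have e4 : (1 : End F V) + 1 = 2 := by norm_num
    rw [e4, e3]
    have e5 : (-1 : F) ^ 3 = -1 := by ring
    rw [e5, neg_smul, one_smul]
  exact fieldStr_final hg c 0 (-1) w hwSA hw3 hgw hT

/-- Isometries of order dividing three with `1 + h + h² ≠ 0` have a field structure. -/
theorem fieldStr_of_order_three [Finite F] (hAlt : B.IsAlt) (hNd : B.Nondegenerate)
    (hdim : finrank F V = 6) (hg : IsoPair B h hi) (c : F) (h3 : h ^ 3 = 1) (hS : 1 + h + h ^ 2 ≠ 0) :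
    FieldStr B c h := by
  obtain ⟨e, f, h1, h2, h4, h5, h6⟩ := exists_gram_pair hAlt hNd hg h3 hS
  exact fieldStr_of_gram hAlt hNd hdim hg c h3 h1 h2 h4 h5 h6

end

end Cfsg.Agent.Lib.Cover2.SpT
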