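/-
Unipotent isometries with `(h-1)⁴ = 0`.
-/
import Mathlib
import Cfsg.Agent.Lib.Cover2.SpT.OrderThree
import Cfsg.Agent.Lib.Cover2.SpT.Fitting

set_option autoImplicit false

namespace Cfsg.Agent.Lib.Cover2.SpT

open Module Polynomial

variable {F V : Type*} [Field F] [AddCommGroup V] [Module F V]
variable {B : LinearMap.BilinForm F V} {g gi h hi : End F V}

section
variable [FiniteDimensional F V] [CharP F 3]

/-- The Gram identities for `n = h - 1`, `n⁴ = 0`. -/
theorem gram_rec (hg : IsoPair B h hi) {n : End F V} (hn : ∀ x, h x = x + n x)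
    (hn4 : ∀ x, n (n (n (n x))) = 0) (u w : V) :
    B (n (n (n u))) (n w) = 0 ∧ B (n (n (n u))) (n (n w)) = 0 ∧ B (n (n (n u))) (n (n (n w))) = 0 ∧
    B (n (n u)) (n (n w)) = 0 ∧ B (n (n u)) (n (n (n w))) = 0 ∧ B (n u) (n (n (n w))) = 0 ∧
    B (n (n u)) (n w) = - B (n (n (n u))) w ∧ B (n u) (n (n w)) = B (n (n (n u))) w ∧
    B u (n (n (n w))) = - B (n (n (n u))) w := by
  have star : ∀ x y, B (n x) (n y) + B (n x) y + B x (n y) = 0 := by
    intro x y
    have := hg.isom x y
    rw [hn, hn] at this
    simp only [map_add, LinearMap.add_apply] at this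
    linear_combination this
  have r31 : B (n (n (n u))) (n w) = 0 := by
    have := star (n (n (n u))) w
    simpa [hn4] using this
  have r32 : B (n (n (n u))) (n (n w)) = 0 := by
    have := star (n (n (n u))) (n w)
    simpa [hn4] using this
  have r33 : B (n (n (n u))) (n (n (n w))) = 0 := by
    have := star (n (n (n u))) (n (n w))
    simpa [hn4] using this
  have r22 : B (n (n u)) (n (n w)) = 0 := by
    have := star (n (n u)) (n w)
    rw [r32, r31] at this
    simpa using this
  have r23 : B (n (n u)) (n (n (n w))) = 0 := by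
    have := star (n (n u)) (n (n w))
    rw [r33, r32] at this
    simpa using this
  have r13 : B (n u) (n (n (n w))) = 0 := by
    have := star (n u) (n (n w))
    rw [r23, r22] at this
    simpa using this
  have r21 : B (n (n u)) (n w) = - B (n (n (n u))) w := by
    have := star (n (n u)) w
    rw [r31] at this
    linear_combination this
  have r12 : B (n u) (n (n w)) = B (n (n (n u))) w := by
    have := star (n u) (n w)
    rw [r22, r21] at this
    linear_combination this
  have r03 : B u (n (n (n w))) = - B (n (n (n u))) w := by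
    have := star u (n (n w))
    rw [r13, r12] at this
    linear_combination this
  exact ⟨r31, r32, r33, r22, r23, r13, r21, r12, r03⟩

/-- If `n⁴ = 0 ≠ n³` then `h` has an invariant hyperbolic plane. -/
theorem split_of_n3 (hAlt : B.IsAlt) (hNd : B.Nondegenerate) (hdim : finrank F V = 6)
    (hg : IsoPair B h hi) {n : End F V} (hn : ∀ x, h x = x + n x)
    (hn4 : ∀ x, n (n (n (n x))) = 0) (hn3 : ∃ x, n (n (n x)) ≠ 0) : Split2 B h := by
  have hanti : ∀ x y, B x y = - B y x := fun x y => (LinearMap.BilinForm.IsAlt.neg_eq hAlt y x).symm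
  have h2 : (2 : F) ≠ 0 := two_ne_zero'
  -- a good vector
  obtain ⟨v, hκ⟩ : ∃ v, B (n (n (n v))) v ≠ 0 := by
    by_contra hc
    push Not at hc
    obtain ⟨x, hx⟩ := hn3
    apply hx
    apply hNd.1
    intro y
    have h1 := hc (x + y)
    simp only [map_add, LinearMap.add_apply, hc x, hc y, zero_add, add_zero] at h1
    have h3 := (gram_rec hg hn hn4 x y).2.2.2.2.2.2.2.2
    rw [hanti] at h3
    have h4 : B (n (n (n y))) x = B (n (n (n x))) y := by linear_combination -h3
    rw [h4] at h1
    have h5 : (2 : F) * B (n (n (n x))) y = 0 := by linear_combination h1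
    exact (mul_eq_zero.mp h5).resolve_left h2
  set κ := B (n (n (n v))) v with hκdef
  set x0 := v with hx0
  set x1 := n v with hx1
  set x2 := n (n v) with hx2
  set x3 := n (n (n v)) with hx3
  obtain ⟨r31, r32, r33, r22, r23, r13, r21, r12, r03⟩ := gram_rec hg hn hn4 v v
  set W := Submodule.span F (Set.range ![x0, x1, x2, x3]) with hW
  have hmem : ∀ y, y ∈ W ↔ ∃ a b c d : F, a • x0 + b • x1 + c • x2 + d • x3 = y := by
    intro y
    rw [hW, Submodule.mem_span_range_iff_exists_fun]
    constructor
    · rintro ⟨c, hc⟩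
      refine ⟨c 0, c 1, c 2, c 3, ?_⟩
      rw [← hc, Fin.sum_univ_four]
      simp
    · rintro ⟨a, b, c, d, rfl⟩
      refine ⟨![a, b, c, d], ?_⟩
      rw [Fin.sum_univ_four]
      simp
  have hnW : ∀ y ∈ W, n y ∈ W := by
    intro y hy
    obtain ⟨a, b, c, d, rfl⟩ := (hmem y).mp hy
    refine (hmem _).mpr ⟨0, a, b, c, ?_⟩
    simp only [map_add, map_smul, zero_smul, zero_add, hx0, hx1, hx2, hx3, hn4, smul_zero, add_zero]
  have hhW : ∀ y ∈ W, h y ∈ W := by
    intro y hy
    rw [hn]
    exact W.add_mem hy (hnW y hy)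
  have hhi : ∀ x, hi x = x - n x + n (n x) - n (n (n x)) := by
    intro x
    have e : h (x - n x + n (n x) - n (n (n x))) = x := by
      rw [hn]
      simp only [map_sub, map_add, hn4]
      abel
    have h3 := hg.left (x - n x + n (n x) - n (n (n x)))
    rwa [e] at h3
  have hhiW : ∀ y ∈ W, hi y ∈ W := by
    intro y hy
    rw [hhi]
    have h1 := hnW y hy
    have h2' := hnW _ h1
    have h3 := hnW _ h2'
    exact W.sub_mem (W.add_mem (W.sub_mem hy h1) h2') h3
  set R := B.orthogonal W with hR
  have hmemR : ∀ y, y ∈ R ↔ ∀ u ∈ W, B u y = 0 := by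
    intro y
    rw [hR, LinearMap.BilinForm.mem_orthogonal_iff]
  have hx0W : x0 ∈ W := Submodule.subset_span ⟨0, by simp⟩
  have hx1W : x1 ∈ W := Submodule.subset_span ⟨1, by simp⟩
  have hx2W : x2 ∈ W := Submodule.subset_span ⟨2, by simp⟩
  have hx3W : x3 ∈ W := Submodule.subset_span ⟨3, by simp⟩
  have hcompl : IsCompl W R := by
    rw [hR, LinearMap.BilinForm.isCompl_orthogonal_iff_disjoint hAlt.isRefl, Submodule.disjoint_def]
    intro y hy hyR
    rw [← hR] at hyR
    obtain ⟨a, b, c, d, rfl⟩ := (hmem y).mp hy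
    have pair : ∀ u ∈ W, a * B x0 u + b * B x1 u + c * B x2 u + d * B x3 u = 0 := by
      intro u hu
      have e1 : B (a • x0 + b • x1 + c • x2 + d • x3) u = 0 := by
        rw [hanti, (hmemR _).mp hyR u hu, neg_zero]
      simpa using e1
    have p3 := pair x3 hx3W
    have p2 := pair x2 hx2W
    have p1 := pair x1 hx1W
    have p0 := pair x0 hx0W
    have g10 : B x1 x0 = - B x0 x1 := hanti _ _
    have g20 : B x2 x0 = - B x0 x2 := hanti _ _
    have g21 : B x2 x1 = - κ := r21
    have g12 : B x1 x2 = κ := r12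
    have g03 : B x0 x3 = - κ := r03
    have g13 : B x1 x3 = 0 := r13
    have g23 : B x2 x3 = 0 := r23
    have g31 : B x3 x1 = 0 := r31
    have g32 : B x3 x2 = 0 := r32
    have g22 : B x2 x2 = 0 := r22
    have g30 : B x3 x0 = κ := rfl
    simp only [g03, g13, g23, hAlt x3, g12, g22, g32, g21, g31, hAlt x1, g30, hAlt x0, g10, g20] at p0 p1 p2 p3
    have ha : a = 0 := by
      have : a * κ = 0 := by linear_combination -p3
      exact (mul_eq_zero.mp this).resolve_right hκ
    have hb : b = 0 := by
      have : b * κ = 0 := by rw [ha] at p2; linear_combination p2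
      exact (mul_eq_zero.mp this).resolve_right hκ
    have hc : c = 0 := by
      have : c * κ = 0 := by rw [ha, hb] at p1; linear_combination -p1
      exact (mul_eq_zero.mp this).resolve_right hκ
    have hd : d = 0 := by
      have : d * κ = 0 := by rw [ha, hb, hc] at p0; linear_combination p0
      exact (mul_eq_zero.mp this).resolve_right hκ
    simp [ha, hb, hc, hd]
  refine split_of_isCompl hAlt hNd hdim hcompl (fun x hx y hy => (hmemR y).mp hy x hx) ?_ ?_ hhW ?_
  · intro h0
    rw [h0, Submodule.mem_bot] at hx0W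
    apply hκ
    have e0 : κ = B x3 x0 := rfl
    rw [e0, hx0W]
    simp
  · intro h0
    rw [h0] at hcompl
    have htop : W = ⊤ := by simpa using hcompl.sup_eq_top
    have hfr : finrank F W ≤ 4 := by
      have := finrank_range_le_card (R := F) (![x0, x1, x2, x3])
      simpa [Set.finrank] using this
    rw [htop, finrank_top, hdim] at hfr
    omega
  · intro y hy
    rw [hmemR] at hy ⊢
    intro u hu
    rw [← hg.adj', hy _ (hhiW u hu)]

/-- The unipotent case. -/
theorem unip_case [Finite F] (hAlt : B.IsAlt) (hNd : B.Nondegenerate) (hdim : finrank F V = 6)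
    (hg : IsoPair B h hi) (c : F) (hn4 : (h - 1) ^ 4 = 0) (hn2 : (h - 1) ^ 2 ≠ 0) :
    Split2 B h ∨ FieldStr B c h := by
  set n : End F V := h - 1 with hn
  have hnx : ∀ x, h x = x + n x := by
    intro x
    simp [hn]
  have hn4' : ∀ x, n (n (n (n x))) = 0 := by
    intro x
    have := congrArg (fun f : End F V => f x) hn4
    simpa [pow_succ] using this
  by_cases hn3 : n ^ 3 = 0
  · right
    have e30 : (3 : End F V) = 0 := end_three_eq_zero
    have en2 : n ^ 2 = 1 + h + h ^ 2 := by
      have : n ^ 2 = 1 + h + h ^ 2 - (3 : End F V) * h := by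
        rw [hn]; noncomm_ring
      rw [this, e30]; simp
    have h3 : h ^ 3 = 1 := by
      have e : h = n + 1 := by rw [hn]; abel
      rw [e, add_cube_of_commute (Commute.one_right n), hn3]
      simp
    exact fieldStr_of_order_three hAlt hNd hdim hg c h3 (by rwa [← en2])
  · left
    refine split_of_n3 hAlt hNd hdim hg hnx hn4' ?_
    by_contra hc
    push Not at hc
    apply hn3
    ext x
    simpa [pow_succ] using hc x

/-- `g + g⁻¹ - 2ε` in terms of `h = ε g`. -/
theorem N_eq_of_eps (hg : IsoPair B g gi) {ε : F} (hε : ε * ε = 1) :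
    (g + gi) - (2 * ε) • 1 = ε • ((ε • gi) * (ε • g - 1) ^ 2) := by
  have h1 : (ε • gi) * (ε • g) = 1 := by
    rw [smul_mul_smul_comm, hε, hg.inv_mul, one_smul]
  set h := ε • g with hh
  set hi := ε • gi with hhi
  have e : hi * (h - 1) ^ 2 = h + hi - (2 : End F V) := by
    have : hi * (h - 1) ^ 2 = (hi * h) * h - (2 : End F V) * (hi * h) + hi := by noncomm_ring
    rw [this, h1, one_mul, mul_one]
    abel
  rw [e, hh, hhi]
  simp only [smul_sub, smul_add, smul_smul, hε, one_smul]
  congr 1
  rw [show (2 : End F V) = (2 : F) • (1 : End F V) by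
    rw [two_smul, one_add_one_eq_two], smul_smul, mul_comm]

/-- Case `N² = 0 ≠ N`. -/
theorem case_B [Finite F] (hAlt : B.IsAlt) (hNd : B.Nondegenerate) (hdim : finrank F V = 6)
    (hg : IsoPair B g gi) (c t : F) (hN0 : (g + gi) - t • 1 ≠ 0) (hN2 : ((g + gi) - t • 1) ^ 2 = 0) :
    Split2 B g ∨ FieldStr B c g := by
  have hanti : ∀ x y, B x y = - B y x := fun x y => (LinearMap.BilinForm.IsAlt.neg_eq hAlt y x).symm
  have h2 : (2 : F) ≠ 0 := two_ne_zero'
  set N := (g + gi) - t • 1 with hN
  have hNSA : SA B N := hg.sa_T.sub (SA.one.smul t)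
  have hcomm : Commute g N := hg.comm_T.sub_right ((Commute.one_right g).smul_right t)
  have hNN : ∀ x, N (N x) = 0 := by
    intro x
    have := congrArg (fun f : End F V => f x) hN2
    simpa [sq] using this
  have hNx : ∀ x, N x = g x + gi x - t • x := by
    intro x
    simp [hN]
  set X := LinearMap.ker N with hX
  have hXmem : ∀ x, x ∈ X ↔ N x = 0 := fun x => LinearMap.mem_ker
  have hXg : ∀ x ∈ X, g x + gi x = t • x := by
    intro x hx
    rw [hXmem, hNx, sub_eq_zero] at hx
    exact hx
  have hgX : ∀ x ∈ X, g x ∈ X := by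
    intro x hx
    rw [hXmem] at hx ⊢
    have := congrArg (fun f : End F V => f x) hcomm.eq
    simp only [Module.End.mul_apply, hx, map_zero] at this
    exact this.symm
  by_cases hex : ∃ x ∈ X, B x (g x) ≠ 0
  · left
    obtain ⟨x, hxX, hx⟩ := hex
    have hgg : g (g x) = t • g x - x := by
      have e := hXg x hxX
      have e2 := congrArg g e
      rw [map_add, hg.right, map_smul] at e2
      rw [← e2]
      abel
    refine ⟨x, (B x (g x))⁻¹ • g x, ?_, ?_, ?_⟩
    · rw [map_smul, smul_eq_mul, inv_mul_cancel₀ hx]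
    · refine Submodule.mem_span_pair.mpr ⟨0, B x (g x), ?_⟩
      rw [zero_smul, zero_add, smul_smul, mul_inv_cancel₀ hx, one_smul]
    · refine Submodule.mem_span_pair.mpr ⟨-(B x (g x))⁻¹, t, ?_⟩
      rw [map_smul, hgg, smul_sub, smul_smul, smul_smul, neg_smul, mul_comm t]
      abel
  · push Not at hex
    -- polarization on `X`
    have hpol : ∀ x ∈ X, ∀ y ∈ X, B x (g y) = - B y (g x) := by
      intro x hx y hy
      have h1 := hex (x + y) (X.add_mem hx hy)
      simp only [map_add, LinearMap.add_apply, hex x hx, hex y hy, zero_add, add_zero] at h1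
      exact eq_neg_of_add_eq_zero_right h1
    set O := B.orthogonal X with hO
    have hmemO : ∀ y, y ∈ O ↔ ∀ u ∈ X, B u y = 0 := by
      intro y
      rw [hO, LinearMap.BilinForm.mem_orthogonal_iff]
    have hrangeO : LinearMap.range N = O := by
      apply Submodule.eq_of_le_of_finrank_eq
      · rintro _ ⟨z, rfl⟩
        rw [hmemO]
        intro u hu
        rw [← hNSA, (hXmem u).mp hu]
        simp
      · have e1 : finrank F (LinearMap.range N) + finrank F X = finrank F V :=
          LinearMap.finrank_range_add_finrank_ker N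
        have e2 := LinearMap.BilinForm.finrank_orthogonal hNd X
        have e3 := Submodule.finrank_le X
        rw [hdim] at e1 e2 e3
        rw [← hO] at e2
        omega
    have hOX : O ≤ X := by
      rw [← hrangeO]
      rintro _ ⟨z, rfl⟩
      exact (hXmem _).mpr (hNN z)
    -- `X` is not totally isotropic
    obtain ⟨a, haX, b, hbX, hab⟩ : ∃ a ∈ X, ∃ b ∈ X, B a b ≠ 0 := by
      by_contra hc
      push Not at hc
      have hXO : X ≤ O := by
        intro y hy
        rw [hmemO]
        intro u hu
        exact hc u hu y hy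
      have hXeq : X = O := le_antisymm hXO hOX
      have hfr : finrank F X = 3 := by
        have e2 := LinearMap.BilinForm.finrank_orthogonal hNd X
        have e3 := Submodule.finrank_le X
        rw [hdim, ← hO, ← hXeq] at e2
        rw [hdim] at e3
        omega
      obtain ⟨Y, hY⟩ := Submodule.exists_isCompl X
      have hfrY : finrank F Y = 3 := by
        have := Submodule.finrank_add_eq_of_isCompl hY
        omega
      have hCalt : (B.compLeft N).IsAlt := fun x => hNSA.self_zero hAlt h2 x
      obtain ⟨k, hk⟩ := Cfsg.Agent.Lib.Classical.Symp.DecompMax.even_finrank (F := F) 3 (V := Y)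
        ((B.compLeft N).restrict Y) (fun x => hCalt x)
        (nondeg_of_left (fun x => hCalt x) (by
          intro y hy
          have hy0 : N y = 0 := by
            apply hNd.1
            intro z
            have hz : z ∈ X ⊔ Y := by rw [hY.sup_eq_top]; trivial
            obtain ⟨x', hx', y', hy', rfl⟩ := Submodule.mem_sup.mp hz
            rw [map_add]
            have t1 : B (N y) x' = 0 := by rw [hNSA, (hXmem _).mp hx']; simp
            have t2 : B (N y) y' = 0 := hy ⟨y', hy'⟩
            rw [t1, t2, add_zero]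
          have : (y : V) ∈ X ⊓ Y := ⟨(hXmem _).mpr hy0, y.2⟩
          rw [hY.inf_eq_bot, Submodule.mem_bot] at this
          exact Subtype.ext this)) hfrY
      omega
    -- the scalar
    set ε : F := 2⁻¹ * t with hε
    have hiO : ∀ y ∈ X, g y - gi y ∈ O := by
      intro y hy
      rw [hmemO]
      intro u hu
      rw [map_sub, sub_eq_zero, hpol u hu y hy, ← hanti, hg.adj]
    have hgy : ∀ y ∈ X, g y = ε • y + (2 : F)⁻¹ • (g y - gi y) := by
      intro y hy
      have e := hXg y hy
      have e2 : (2 : F) • g y = t • y + (g y - gi y) := by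
        rw [← e, two_smul]
        abel
      have e3 : g y = (2 : F)⁻¹ • ((2 : F) • g y) := by
        rw [smul_smul, inv_mul_cancel₀ h2, one_smul]
      rw [hε, mul_smul, ← smul_add, ← e2, ← e3]
    have hεε : ε * ε = 1 := by
      have e1 := hg.isom a b
      rw [hgy a haX, hgy b hbX] at e1
      have t1 : B a (g b - gi b) = 0 := (hmemO _).mp (hiO b hbX) a haX
      have t2 : B (g a - gi a) b = 0 := by
        rw [hanti, (hmemO _).mp (hiO a haX) b hbX, neg_zero]
      have t3 : B (g a - gi a) (g b - gi b) = 0 :=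
        (hmemO _).mp (hiO b hbX) _ (hOX (hiO a haX))
      simp only [map_add, map_smul, LinearMap.add_apply, LinearMap.smul_apply, smul_eq_mul, t1, t2, t3,
        mul_zero, add_zero] at e1
      have e2 : (ε * ε - 1) * B a b = 0 := by linear_combination e1
      have e3 := (mul_eq_zero.mp e2).resolve_right hab
      exact sub_eq_zero.mp e3
    have hε0 : ε ≠ 0 := by
      intro h0
      rw [h0] at hεε
      simp at hεε
    have ht : t = 2 * ε := by
      rw [hε, ← mul_assoc, mul_inv_cancel₀ h2, one_mul]
    have hNeq := N_eq_of_eps hg hεε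
    rw [← ht, ← hN] at hNeq
    have hh := hg.smul hεε
    set h := ε • g with hhdef
    set hi := ε • gi with hhidef
    have hcomm2 : Commute hi ((h - 1) ^ 2) :=
      ((hh.comm.symm).sub_right (Commute.one_right hi)).pow_right 2
    have hn2 : (h - 1) ^ 2 ≠ 0 := by
      intro h0
      apply hN0
      rw [hNeq, h0, mul_zero, smul_zero]
    have hn4 : (h - 1) ^ 4 = 0 := by
      have e1 : N ^ 2 = (hi ^ 2) * (h - 1) ^ 4 := by
        rw [hNeq, _root_.smul_pow, sq ε, hεε, one_smul, hcomm2.mul_pow, ← pow_mul]
      rw [hN2] at e1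
      have e2 : h ^ 2 * hi ^ 2 = 1 := by
        rw [← hh.comm.mul_pow, hh.mul_inv, one_pow]
      have e3 : (h - 1) ^ 4 = h ^ 2 * (hi ^ 2 * (h - 1) ^ 4) := by
        rw [← mul_assoc, e2, one_mul]
      rw [e3, ← e1, mul_zero]
    rcases unip_case hAlt hNd hdim hh c hn4 hn2 with h1 | h1
    · exact Or.inl (split2_of_smul hε0 h1)
    · exact Or.inr (fieldStr_of_smul hε0 h1)

end

end Cfsg.Agent.Lib.Cover2.SpT
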