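/-
The case `N³ = 0 ≠ N²`, and the main dichotomy.
-/
import Mathlib
import Cfsg.Agent.Lib.Cover2.SpT.Cyclic
import Cfsg.Agent.Lib.Cover2.SpT.NoEigen
import Cfsg.Agent.Lib.Cover2.SpT.Unip

set_option autoImplicit false

namespace Cfsg.Agent.Lib.Cover2.SpT

open Module Polynomial

variable {F V : Type*} [Field F] [AddCommGroup V] [Module F V]
variable {B : LinearMap.BilinForm F V} {g gi : End F V}

section
variable [FiniteDimensional F V] [CharP F 3]

/-- Independence of the `g`-orbit of a vector with `N²v` not an eigenvector. -/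
theorem cyclic_indep (hg : IsoPair B g gi) (t : F) {N : End F V} (hN : N = (g + gi) - t • 1)
    (hN3 : N ^ 3 = 0) {v : V} (hz : N (N v) ≠ 0) (hne : ∀ μ : F, g (N (N v)) ≠ μ • N (N v)) :
    LinearIndependent F (fun i : Fin 6 => (g ^ (i : ℕ)) v) := by
  rw [Fintype.linearIndependent_iff]
  intro a ha
  have hcomm : Commute g N := by
    rw [hN]
    exact hg.comm_T.sub_right ((Commute.one_right g).smul_right t)
  have hNg : ∀ y, N (g y) = g (N y) := by
    intro y
    have := congrArg (fun f : End F V => f y) hcomm.eq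
    simpa using this.symm
  have hNNN : ∀ y, N (N (N y)) = 0 := by
    intro y
    have := congrArg (fun f : End F V => f y) hN3
    simpa [pow_succ] using this
  have hNA : ∀ (Q : F[X]) y, N (aeval g Q y) = aeval g Q (N y) := by
    intro Q y
    have := congrArg (fun f : End F V => f y) (commute_aeval hcomm.symm Q).eq
    simpa using this
  set f : F[X] := X ^ 2 - C t * X + 1 with hf
  have hfm : f.Monic := by
    rw [hf]
    monicity!
  have hfd : f.natDegree = 2 := by
    rw [hf]
    compute_degree!
  have hf1 : f ≠ 1 := by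
    intro h
    rw [h] at hfd
    simp at hfd
  have hfg : ∀ (Q : F[X]) y, aeval g (f * Q) y = g (N (aeval g Q y)) := by
    intro Q y
    rw [aeval_mul_apply]
    have e : aeval g f = g * N := by
      ext y
      simp only [hf, hN, map_add, map_sub, map_mul, aeval_X, aeval_X_pow, aeval_C, map_one,
        LinearMap.add_apply, LinearMap.sub_apply, Module.End.mul_apply, Module.algebraMap_end_apply,
        Module.End.one_apply, LinearMap.smul_apply, map_smul, hg.right, sq]
      abel
    rw [e, Module.End.mul_apply]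
  have hinj : ∀ y, g y = 0 → y = 0 := by
    intro y hy
    have := hg.left y
    rw [hy, map_zero] at this
    exact this.symm
  have lin_z : ∀ Q : F[X], Q.natDegree < 2 → aeval g Q (N (N v)) = 0 → Q = 0 := by
    intro Q hQ h0
    obtain ⟨α, β, rfl⟩ := exists_eq_X_add_C_of_natDegree_le_one (by omega : Q.natDegree ≤ 1)
    simp only [map_add, map_mul, aeval_C, aeval_X, LinearMap.add_apply, Module.End.mul_apply,
      Module.algebraMap_end_apply] at h0
    have hα : α = 0 := by
      by_contra hα
      apply hne (-(α⁻¹ * β))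
      have e2 := congrArg (fun y => α⁻¹ • y) h0
      simp only [smul_add, smul_smul, inv_mul_cancel₀ hα, one_smul, smul_zero] at e2
      rw [neg_smul]
      exact eq_neg_of_add_eq_zero_left e2
    rw [hα] at h0
    simp only [zero_smul, zero_add] at h0
    have hβ := (smul_eq_zero.mp h0).resolve_right hz
    simp [hα, hβ]
  set P := polyOfFin a with hP
  have hPv : aeval g P v = 0 := by rw [hP, polyOfFin_aeval, ha]
  have hPd : P.natDegree < 6 := polyOfFin_natDegree (by norm_num) a
  -- first division
  set P0 := P %ₘ f with hP0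
  set Q1 := P /ₘ f with hQ1
  have hdiv1 : P0 + f * Q1 = P := modByMonic_add_div P f
  have hP0d : P0.natDegree < 2 := by
    rw [← hfd]
    exact natDegree_modByMonic_lt P hfm hf1
  have hQ1d : Q1.natDegree ≤ 3 := by
    have := natDegree_divByMonic P hfm
    rw [← hQ1, hfd] at this
    omega
  set P1 := Q1 %ₘ f with hP1
  set P2 := Q1 /ₘ f with hP2
  have hdiv2 : P1 + f * P2 = Q1 := modByMonic_add_div Q1 f
  have hP1d : P1.natDegree < 2 := by
    rw [← hfd]
    exact natDegree_modByMonic_lt Q1 hfm hf1
  have hP2d : P2.natDegree < 2 := by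
    have := natDegree_divByMonic Q1 hfm
    rw [← hP2, hfd] at this
    omega
  -- step 1
  have h1 : P0 = 0 := by
    apply lin_z P0 hP0d
    have e := hPv
    rw [← hdiv1, map_add, LinearMap.add_apply, hfg] at e
    have e2 := congrArg (fun y => N (N y)) e
    simp only [map_add, map_zero, hNg, hNNN, add_zero, hNA] at e2
    exact e2
  have hQ1v : aeval g Q1 (N v) = 0 := by
    have e := hPv
    rw [← hdiv1, h1, zero_add, hfg] at e
    rw [← hNA]
    exact hinj _ e
  have h2 : P1 = 0 := by
    apply lin_z P1 hP1d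
    have e := hQ1v
    rw [← hdiv2, map_add, LinearMap.add_apply, hfg] at e
    have e2 := congrArg (fun y => N y) e
    simp only [map_add, map_zero, hNg, hNA, hNNN, add_zero] at e2
    exact e2
  have h3 : P2 = 0 := by
    apply lin_z P2 hP2d
    have e := hQ1v
    rw [← hdiv2, h2, zero_add, hfg] at e
    have e2 := hinj _ e
    rw [hNA] at e2
    exact e2
  have hPz : P = 0 := by
    rw [← hdiv1, h1, ← hdiv2, h2, h3]
    simp
  intro i
  have := polyOfFin_coeff a i
  rw [← hP, hPz] at this
  simpa using this.symm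

/-- If all vectors of `N²V` are eigenvectors of `g` we reach a contradiction. -/
theorem no_all_eigen (hAlt : B.IsAlt) (hNd : B.Nondegenerate) (hdim : finrank F V = 6)
    (hg : IsoPair B g gi) (t : F) {N : End F V} (hN : N = (g + gi) - t • 1) (hN3 : N ^ 3 = 0)
    {v0 : V} (hv0 : N (N v0) ≠ 0)
    (hall : ∀ v, N (N v) = 0 ∨ ∃ μ : F, g (N (N v)) = μ • N (N v)) : False := by
  have hanti : ∀ x y, B x y = - B y x := fun x y => (LinearMap.BilinForm.IsAlt.neg_eq hAlt y x).symm
  have h2 : (2 : F) ≠ 0 := two_ne_zero'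
  have hNSA : SA B N := by
    rw [hN]
    exact hg.sa_T.sub (SA.one.smul t)
  have hcomm : Commute g N := by
    rw [hN]
    exact hg.comm_T.sub_right ((Commute.one_right g).smul_right t)
  have hNg : ∀ y, N (g y) = g (N y) := by
    intro y
    have := congrArg (fun f : End F V => f y) hcomm.eq
    simpa using this.symm
  have hNNN : ∀ y, N (N (N y)) = 0 := by
    intro y
    have := congrArg (fun f : End F V => f y) hN3
    simpa [pow_succ] using this
  set z0 := N (N v0) with hz0
  obtain ⟨ε, hε⟩ : ∃ ε : F, g z0 = ε • z0 := (hall v0).resolve_left hv0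
  -- all eigenvalues coincide
  have hsc : ∀ w, g (N (N w)) = ε • N (N w) := by
    intro w
    rcases hall w with h0 | ⟨μ, hμ⟩
    · rw [h0]; simp
    have e : N (N (w + v0)) = N (N w) + z0 := by simp [hz0]
    rcases hall (w + v0) with h1 | ⟨μ', hμ'⟩
    · rw [e] at h1
      have e2 : N (N w) = - z0 := eq_neg_of_add_eq_zero_left h1
      rw [e2, map_neg, hε, smul_neg]
    · rw [e, map_add, hμ, hε] at hμ'
      by_cases hμμ : μ = μ'
      · subst hμμ
        have e3 : (ε - μ) • z0 = 0 := by linear_combination (norm := module) hμ'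
        have e4 := (smul_eq_zero.mp e3).resolve_right hv0
        rw [sub_eq_zero.mp e4]
        exact hμ
      · have e3 : (μ - μ') • N (N w) = (μ' - ε) • z0 := by linear_combination (norm := module) hμ'
        have hne : μ - μ' ≠ 0 := sub_ne_zero.mpr hμμ
        have e4 : N (N w) = ((μ - μ')⁻¹ * (μ' - ε)) • z0 := by
          rw [mul_smul, ← e3, smul_smul, inv_mul_cancel₀ hne, one_smul]
        rw [e4, map_smul, hε, smul_comm]
  have hinj : ∀ y, g y = 0 → y = 0 := by
    intro y hy
    have := hg.left y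
    rw [hy, map_zero] at this
    exact this.symm
  have hε0 : ε ≠ 0 := by
    intro h0
    rw [h0, zero_smul] at hε
    exact hv0 (hinj _ hε)
  have hgi : ∀ w, gi (N (N w)) = ε⁻¹ • N (N w) := by
    intro w
    have e := hg.left (ε⁻¹ • N (N w))
    rw [map_smul, hsc, smul_smul, inv_mul_cancel₀ hε0, one_smul] at e
    exact e
  have hN2SA : ∀ x y, B (N (N x)) y = B x (N (N y)) := by
    intro x y
    rw [hNSA, hNSA]
  obtain ⟨b, hb⟩ : ∃ b, B z0 b ≠ 0 := by
    by_contra hc
    push Not at hc
    exact hv0 (hNd.1 _ hc)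
  have hεε : ε * ε = 1 := by
    have t1 : B z0 (g b) = ε⁻¹ * B z0 b := by
      rw [← hg.adj', hz0, hgi, map_smul, LinearMap.smul_apply, smul_eq_mul]
    have t2 : B z0 (g b) = ε * B z0 b := by
      rw [hz0, hN2SA, hNg, hNg, hsc, map_smul, smul_eq_mul, ← hN2SA]
    rw [t1] at t2
    have t3 : ε⁻¹ = ε := mul_right_cancel₀ hb t2
    calc ε * ε = ε⁻¹ * ε := by rw [t3]
      _ = 1 := inv_mul_cancel₀ hε0
  have hεi : ε⁻¹ = ε := inv_eq_of_mul_eq_one_left hεε
  have ht : t = 2 * ε := by
    have e1 : N z0 = 0 := hNNN v0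
    have e2 : N z0 = g z0 + gi z0 - t • z0 := by
      rw [hN]; simp
    rw [e1, hε, hz0, hgi, ← hz0, hεi] at e2
    have e3 : (t - 2 * ε) • z0 = 0 := by linear_combination (norm := module) e2
    have e4 := (smul_eq_zero.mp e3).resolve_right hv0
    exact sub_eq_zero.mp e4
  have hNeq := N_eq_of_eps hg hεε
  rw [← ht, ← hN] at hNeq
  have hh := hg.smul hεε
  set h := ε • g with hhdef
  set hi := ε • gi with hhidef
  set n : End F V := h - 1 with hn
  have hcn : Commute hi n := (hh.comm.symm).sub_right (Commute.one_right hi)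
  have hcomm2 : Commute hi (n ^ 2) := hcn.pow_right 2
  have hN2 : N ^ 2 = (hi ^ 2) * n ^ 4 := by
    rw [hNeq, _root_.smul_pow, sq ε, hεε, one_smul, hcomm2.mul_pow, ← pow_mul]
  have e2 : h ^ 2 * hi ^ 2 = 1 := by
    rw [← hh.comm.mul_pow, hh.mul_inv, one_pow]
  have hnN : ∀ w, n (N (N w)) = 0 := by
    intro w
    simp only [hn, hhdef, LinearMap.sub_apply, LinearMap.smul_apply, Module.End.one_apply, hsc]
    rw [smul_smul, hεε, one_smul, sub_self]
  have hn5m : n ^ 5 = 0 := by
    have e3 : n * N ^ 2 = 0 := by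
      ext w
      simp only [Module.End.mul_apply, sq, LinearMap.zero_apply]
      exact hnN w
    rw [hN2, ← mul_assoc, ((hcn.pow_left 2).symm).eq, mul_assoc] at e3
    have e4 : n ^ 5 = h ^ 2 * (hi ^ 2 * (n * n ^ 4)) := by
      rw [← mul_assoc, e2, one_mul, ← pow_succ']
    rw [e4, e3, mul_zero]
  have hihn : hi * n ^ 4 = n ^ 4 := by
    have e3 : hi * h = 1 := hh.inv_mul
    have e4 : hi = 1 - hi * n := by
      rw [hn, mul_sub, e3, mul_one]
      abel
    nth_rw 1 [e4]
    rw [sub_mul, one_mul, mul_assoc, ← pow_succ', hn5m, mul_zero, sub_zero]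
  have hN2n : N ^ 2 = n ^ 4 := by
    rw [hN2, sq hi, mul_assoc, hihn, hihn]
  have hNn : ∀ w, N (N w) = n (n (n (n w))) := by
    intro w
    have := congrArg (fun f : End F V => f w) hN2n
    simpa [pow_succ] using this
  have hn5 : ∀ x, n (n (n (n (n x)))) = 0 := by
    intro x
    have := congrArg (fun f : End F V => f x) hn5m
    simpa [pow_succ] using this
  -- the two top vectors are independent
  set z2 := N (N b) with hz2
  have hz20 : B z2 b = 0 := by
    have e : SA B (N * N) := hNSA.mul hNSA (Commute.refl N)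
    exact e.self_zero hAlt h2 b
  have hz2a : B z2 v0 = - B z0 b := by
    rw [hz2, hN2SA, ← hz0, hanti]
  have hzz : ∀ α β : F, α • z0 + β • z2 = 0 → α = 0 ∧ β = 0 := by
    intro α β hαβ
    have e1 := congrArg (fun y => B y b) hαβ
    simp only [map_add, map_smul, LinearMap.add_apply, LinearMap.smul_apply, smul_eq_mul, hz20,
      mul_zero, add_zero, map_zero, LinearMap.zero_apply] at e1
    have hα := (mul_eq_zero.mp e1).resolve_right hb
    refine ⟨hα, ?_⟩
    have hz0v : B z0 v0 = 0 := by
      have e : SA B (N * N) := hNSA.mul hNSA (Commute.refl N)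
      exact e.self_zero hAlt h2 v0
    have e3 := congrArg (fun y => B y v0) hαβ
    simp only [map_add, map_smul, LinearMap.add_apply, LinearMap.smul_apply, smul_eq_mul, hz2a, hz0v,
      mul_zero, zero_add, map_zero, LinearMap.zero_apply] at e3
    exact (mul_eq_zero.mp e3).resolve_right (neg_ne_zero.mpr hb)
  have hz0n : z0 = n (n (n (n v0))) := hNn v0
  have hz2n : z2 = n (n (n (n b))) := hNn b
  -- seven independent vectors
  have hind : LinearIndependent F ![v0, n v0, n (n v0), n (n (n v0)), n (n (n (n v0))), b, n b] := by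
    rw [Fintype.linearIndependent_iff]
    intro c hc
    rw [Fin.sum_univ_seven] at hc
    simp only [Matrix.cons_val_zero, Matrix.cons_val_one, Matrix.cons_val, Matrix.head_cons, Matrix.tail_cons] at hc
    have s4 := congrArg (fun y => n (n (n (n y)))) hc
    simp only [map_add, map_smul, hn5, smul_zero, add_zero, map_zero, zero_add] at s4
    rw [← hz0n, ← hz2n] at s4
    obtain ⟨c0, c5⟩ := hzz _ _ s4
    rw [c0, c5, zero_smul, zero_smul, zero_add, add_zero] at hc
    have s3 := congrArg (fun y => n (n (n y))) hc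
    simp only [map_add, map_smul, hn5, smul_zero, add_zero, map_zero, zero_add] at s3
    rw [← hz0n, ← hz2n] at s3
    obtain ⟨c1, c6⟩ := hzz _ _ s3
    rw [c1, c6, zero_smul, zero_smul, zero_add, add_zero] at hc
    have s2 := congrArg (fun y => n (n y)) hc
    simp only [map_add, map_smul, hn5, smul_zero, add_zero, map_zero, zero_add] at s2
    rw [← hz0n] at s2
    have c2 := (smul_eq_zero.mp s2).resolve_right hv0
    rw [c2, zero_smul, zero_add] at hc
    have s1 := congrArg (fun y => n y) hc
    simp only [map_add, map_smul, hn5, smul_zero, add_zero, map_zero, zero_add] at s1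
    rw [← hz0n] at s1
    have c3 := (smul_eq_zero.mp s1).resolve_right hv0
    rw [c3, zero_smul, zero_add, ← hz0n] at hc
    have c4 := (smul_eq_zero.mp hc).resolve_right hv0
    intro i
    fin_cases i
    · exact c0
    · exact c1
    · exact c2
    · exact c3
    · exact c4
    · exact c5
    · exact c6
  have := hind.fintype_card_le_finrank
  rw [hdim] at this
  simp at this

/-- Case `N³ = 0 ≠ N²`. -/
theorem case_C [Finite F] (hAlt : B.IsAlt) (hNd : B.Nondegenerate) (hdim : finrank F V = 6)
    (hg : IsoPair B g gi) (c t : F) (hN3 : ((g + gi) - t • 1) ^ 3 = 0)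
    (hN2 : ((g + gi) - t • 1) ^ 2 ≠ 0) : FieldStr B c g := by
  set N := (g + gi) - t • 1 with hN
  have hT : (g + gi) ^ 3 = t ^ 3 • 1 := by
    have e : N ^ 3 = (g + gi) ^ 3 + (-(t • (1 : End F V))) ^ 3 := by
      rw [hN, sub_eq_add_neg, add_cube_of_commute]
      exact ((Commute.one_right _).smul_right t).neg_right
    rw [hN3] at e
    have e2 : (-(t • (1 : End F V))) ^ 3 = - (t ^ 3 • 1) := by
      rw [Odd.neg_pow (by decide), _root_.smul_pow, one_pow]
    rw [e2] at e
    exact (eq_of_sub_eq_zero (by rw [sub_eq_add_neg]; exact e.symm))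
  obtain ⟨v0, hv0⟩ : ∃ v0, N (N v0) ≠ 0 := by
    by_contra hc
    push Not at hc
    apply hN2
    ext x
    simpa [sq] using hc x
  have hex : ∃ v, N (N v) ≠ 0 ∧ ∀ μ : F, g (N (N v)) ≠ μ • N (N v) := by
    by_contra hc
    push Not at hc
    refine no_all_eigen hAlt hNd hdim hg t hN hN3 hv0 fun v => ?_
    by_cases h0 : N (N v) = 0
    · exact Or.inl h0
    · exact Or.inr (hc v h0)
  obtain ⟨v, hv1, hv2⟩ := hex
  exact fieldStr_of_cyclic hAlt hNd hdim hg c t hT v (cyclic_indep hg t hN hN3 hv1 hv2)

/-- The main dichotomy. -/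
theorem dichotomy [Finite F] (hAlt : B.IsAlt) (hNd : B.Nondegenerate) (hdim : finrank F V = 6)
    (hg : IsoPair B g gi) (c : F) (hc : ∀ ρ : F, ρ ^ 3 - ρ ≠ c) : Split2 B g ∨ FieldStr B c g := by
  by_cases hno : ∀ (t : F) (v : V), (g + gi) v = t • v → v = 0
  · exact Or.inr (fieldStr_of_no_eigen hAlt hNd hdim hg c hc hno)
  push Not at hno
  obtain ⟨t, v, hTv, hv⟩ := hno
  rcases split_or_nilpotent hAlt hNd hdim hg t hv hTv with h | ⟨n, hn⟩
  · exact Or.inl h
  have hNSA : SA B ((g + gi) - t • 1) := hg.sa_T.sub (SA.one.smul t)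
  have hN3 := cube_zero_of_nilpotent hAlt hNd hdim hNSA hn
  by_cases hN0 : (g + gi) - t • 1 = 0
  · exact Or.inl (split_of_T_scalar hAlt hNd hdim hg t hN0)
  by_cases hN2 : ((g + gi) - t • 1) ^ 2 = 0
  · exact case_B hAlt hNd hdim hg c t hN0 hN2
  · exact Or.inr (case_C hAlt hNd hdim hg c t hN3 hN2)

end

end Cfsg.Agent.Lib.Cover2.SpT
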