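/-
Any two self-adjoint roots of `X³ - X - c` on a six-dimensional symplectic space are conjugate under the isometries.
-/
import Mathlib
import Cfsg.Agent.Lib.Cover2.SpT.Final
import Cfsg.Agent.Lib.Cover2.SpT.NoEigen

set_option autoImplicit false

namespace Cfsg.Agent.Lib.Cover2.SpT

open Module Polynomial

variable {F V : Type*} [Field F] [AddCommGroup V] [Module F V]

/-- `X³ - X - c` is irreducible if it has no root. -/
theorem conj_cubic_irreducible (c : F) (hc : ∀ ρ : F, ρ ^ 3 - ρ ≠ c) :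
    Irreducible (X ^ 3 - X - C c : F[X]) := by
  have hnd : (X ^ 3 - X - C c : F[X]).natDegree = 3 := by compute_degree!
  have hm : (X ^ 3 - X - C c : F[X]).Monic := by monicity!
  rw [hm.irreducible_iff_roots_eq_zero_of_degree_le_three (by omega) (by omega)]
  apply Multiset.eq_zero_of_forall_notMem
  intro x hx
  have h := (mem_roots'.1 hx).2
  simp only [IsRoot.def, eval_sub, eval_pow, eval_X, eval_C, sub_eq_zero] at h
  exact hc x h

/-- `u, ωu, ω²u` are independent. -/
theorem conj_indep {ω : End F V} {c : F} (hc : ∀ ρ : F, ρ ^ 3 - ρ ≠ c) (h2 : ω ^ 3 - ω = c • 1)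
    {u : V} (hu : u ≠ 0) (a : Fin 3 → F) (ha : ∑ i, a i • (ω ^ (i : ℕ)) u = 0) : a = 0 := by
  by_contra hne
  have hp : polyOfFin a ≠ 0 := by
    intro h0
    apply hne
    ext i
    have := polyOfFin_coeff a i
    rw [h0] at this
    simpa using this.symm
  have hirr := conj_cubic_irreducible c hc
  have hχ : aeval ω (X ^ 3 - X - C c : F[X]) u = 0 := by
    have : aeval ω (X ^ 3 - X - C c : F[X]) = 0 := by
      simp only [map_sub, map_pow, aeval_X, aeval_C, h2, Module.algebraMap_end_eq_smul_id]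
      rw [sub_eq_zero]
      rfl
    rw [this]
    rfl
  have hcop : IsCoprime (polyOfFin a) (X ^ 3 - X - C c : F[X]) := by
    rw [isCoprime_comm, hirr.coprime_iff_not_dvd]
    intro hd
    have h1 := natDegree_le_of_dvd hd hp
    have h3 := polyOfFin_natDegree (n := 3) (by norm_num) a
    have h4 : (X ^ 3 - X - C c : F[X]).natDegree = 3 := by compute_degree!
    omega
  have h0 : aeval ω (polyOfFin a) u = 0 := by rw [polyOfFin_aeval, ha]
  exact hu (coprime_kill hcop h0 hχ)

/-- The Gram table. -/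
def gramTab (F : Type*) [Field F] : Matrix (Fin 6) (Fin 6) F :=
  !![0, 0, 0, 0, 0, 1;
     0, 0, 0, 0, 1, 0;
     0, 0, 0, 1, 0, 1;
     0, 0, -1, 0, 0, 0;
     0, -1, 0, 0, 0, 0;
     -1, 0, -1, 0, 0, 0]

variable [CharP F 3] [FiniteDimensional F V] {B : LinearMap.BilinForm F V}

/-- A frame adapted to `ω`. -/
theorem exists_frame (hAlt : B.IsAlt) (hNd : B.Nondegenerate) (hdim : finrank F V = 6) {c : F}
    (hc : ∀ ρ : F, ρ ^ 3 - ρ ≠ c) {ω : End F V} (h1 : SA B ω) (h2 : ω ^ 3 - ω = c • 1) :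
    ∃ f : Fin 6 → V, LinearIndependent F f ∧ (∀ i j, B (f i) (f j) = gramTab F i j) ∧
      ω (f 0) = f 1 ∧ ω (f 1) = f 2 ∧ ω (f 2) = c • f 0 + f 1 ∧
      ω (f 3) = f 4 ∧ ω (f 4) = f 5 ∧ ω (f 5) = c • f 3 + f 4 := by
  have h2' : (2 : F) ≠ 0 := two_ne_zero'
  have hcube : ∀ x, ω (ω (ω x)) = c • x + ω x := by
    intro x
    have := congrArg (fun f : End F V => f x) h2
    simp only [LinearMap.sub_apply, pow_succ, pow_zero, one_mul, Module.End.mul_apply,
      LinearMap.smul_apply, Module.End.one_apply] at this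
    rw [← this]
    abel
  -- a nonzero vector
  have hnt : Nontrivial V := by
    apply Module.nontrivial_of_finrank_pos (R := F)
    omega
  obtain ⟨u, hu⟩ := exists_ne (0 : V)
  have hnot : ω (ω u) ∉ Submodule.span F {u, ω u} := by
    intro hmem
    obtain ⟨a, b, hab⟩ := Submodule.mem_span_pair.1 hmem
    have := conj_indep hc h2 hu ![a, b, -1] (by
      simp [Fin.sum_univ_three, pow_succ, Module.End.mul_apply]
      rw [← hab]
      abel)
    have h3 := congrFun this 2
    simp at h3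
  obtain ⟨w, hw, hw1⟩ := exists_sep hAlt hNd hnot
  have hw0 : B u w = 0 := hw u (Submodule.subset_span (by simp))
  have hw01 : B (ω u) w = 0 := hw (ω u) (Submodule.subset_span (by simp))
  -- Gram relations
  have hsa : ∀ x y, B (ω x) y = B x (ω y) := h1
  have hself : ∀ x, B (ω x) x = 0 := fun x => h1.self_zero hAlt h2' x
  have hself2 : ∀ x, B (ω (ω x)) x = 0 := by
    intro x
    have : SA B (ω * ω) := h1.mul h1 (Commute.refl ω)
    exact this.self_zero hAlt h2' x
  have hself3 : ∀ x, B x x = 0 := fun x => hAlt x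
  have hanti : ∀ x y, B y x = - B x y := fun x y => (hAlt.neg_eq x y).symm
  have hsa' : ∀ x y, B x (ω y) = B (ω x) y := fun x y => (h1 x y).symm
  have h3u : ∀ x y, B (ω (ω (ω x))) y = c * B x y + B (ω x) y := by
    intro x y
    rw [hcube]
    simp
  have h4u : ∀ x y, B (ω (ω (ω (ω x)))) y = c * B (ω x) y + B (ω (ω x)) y := by
    intro x y
    rw [hcube (ω x)]
    simp
  -- `τ` values
  have t3 : B (ω (ω (ω u))) w = 0 := by rw [h3u, hw0, hw01]; ring
  have t4 : B (ω (ω (ω (ω u)))) w = 1 := by rw [h4u, hw01, hw1]; ring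
  have s0 : B w u = 0 := by rw [hanti u w, hw0, neg_zero]
  have s1 : B (ω w) u = 0 := by rw [hanti u (ω w), hsa', hw01, neg_zero]
  have s2 : B (ω (ω w)) u = -1 := by rw [hanti u (ω (ω w)), hsa', hsa', hw1]
  have s3 : B (ω (ω (ω w))) u = 0 := by rw [h3u, s0, s1]; ring
  have s4 : B (ω (ω (ω (ω w)))) u = -1 := by rw [h4u, s1, s2]; ring
  have uu3 : ∀ x, B (ω (ω (ω x))) x = 0 := by
    intro x
    rw [h3u, hself3, hself]
    ring
  have uu4 : ∀ x, B (ω (ω (ω (ω x)))) x = 0 := by
    intro x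
    rw [h4u, hself, hself2]
    ring
  have hGram : ∀ i j, B ((![u, ω u, ω (ω u), w, ω w, ω (ω w)] : Fin 6 → V) i)
      ((![u, ω u, ω (ω u), w, ω w, ω (ω w)] : Fin 6 → V) j) = gramTab F i j := by
    intro i j
    fin_cases i <;> fin_cases j <;>
      simp [gramTab, hsa', hself, hself2, hself3, uu3, uu4, hw0, hw01, hw1, t3, t4, s0, s1, s2, s3, s4]
  refine ⟨![u, ω u, ω (ω u), w, ω w, ω (ω w)], ?_, hGram, rfl, rfl, ?_, rfl, rfl, ?_⟩
  · rw [Fintype.linearIndependent_iff]
    intro g hg
    have hp : ∀ j, ∑ i, g i * gramTab F i j = 0 := by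
      intro j
      have := congrArg (fun x => B x ((![u, ω u, ω (ω u), w, ω w, ω (ω w)] : Fin 6 → V) j)) hg
      simp only [map_sum, map_smul, LinearMap.sum_apply, LinearMap.smul_apply, hGram, smul_eq_mul,
        map_zero, LinearMap.zero_apply] at this
      exact this
    have h0 := hp 0
    have h1' := hp 1
    have h2'' := hp 2
    have h3 := hp 3
    have h4 := hp 4
    have h5 := hp 5
    simp [Fin.sum_univ_six, gramTab] at h0 h1' h2'' h3 h4 h5
    intro i
    rw [h3] at h5
    simp at h5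
    rw [h0] at h2''
    simp at h2''
    fin_cases i <;> simp [h0, h1', h2'', h3, h4, h5]
  · simp [hcube]
  · simp [hcube]

/-- **Any two self-adjoint roots of `X³ - X - c` are conjugate by an isometry.** -/
theorem exists_isom_intertwine {F V : Type*} [Field F] [Finite F] [CharP F 3] [AddCommGroup V] [Module F V]
    [FiniteDimensional F V] {B : LinearMap.BilinForm F V} (hAlt : B.IsAlt) (hNd : B.Nondegenerate)
    (hdim : Module.finrank F V = 6) {c : F} (hc : ∀ ρ : F, ρ ^ 3 - ρ ≠ c) {ω ω' : End F V} (h1 : SA B ω)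
    (h2 : ω ^ 3 - ω = c • 1) (h1' : SA B ω') (h2' : ω' ^ 3 - ω' = c • 1) :
    ∃ y : V ≃ₗ[F] V, (∀ a b, B (y a) (y b) = B a b) ∧ ∀ a, y (ω a) = ω' (y a) := by
  obtain ⟨f, hf, hG, a1, a2, a3, a4, a5, a6⟩ := exists_frame hAlt hNd hdim hc h1 h2
  obtain ⟨f', hf', hG', a1', a2', a3', a4', a5', a6'⟩ := exists_frame hAlt hNd hdim hc h1' h2'
  have hcard : Fintype.card (Fin 6) = finrank F V := by simp [hdim]
  let b := basisOfLinearIndependentOfCardEqFinrank hf hcard
  let b' := basisOfLinearIndependentOfCardEqFinrank hf' hcard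
  have hb : ∀ i, b i = f i := fun i => by simp [b]
  have hb' : ∀ i, b' i = f' i := fun i => by simp [b']
  let y : V ≃ₗ[F] V := b.equiv b' (Equiv.refl _)
  have hy : ∀ i, y (f i) = f' i := by
    intro i
    rw [← hb, ← hb']
    simp [y]
  refine ⟨y, ?_, ?_⟩
  · have h : B.comp (y : V →ₗ[F] V) (y : V →ₗ[F] V) = B := by
      refine LinearMap.BilinForm.ext_basis b fun i j => ?_
      rw [hb, hb, LinearMap.BilinForm.comp_apply]
      change B (y (f i)) (y (f j)) = _
      rw [hy, hy, hG, hG']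
    intro a b
    have := congrArg (fun C : LinearMap.BilinForm F V => C a b) h
    simpa [LinearMap.BilinForm.comp_apply] using this
  · have h : (y : V →ₗ[F] V) ∘ₗ ω = ω' ∘ₗ (y : V →ₗ[F] V) := by
      refine b.ext fun i => ?_
      rw [hb]
      change y (ω (f i)) = ω' (y (f i))
      rw [hy]
      fin_cases i
      · change y (ω (f 0)) = ω' (f' 0)
        rw [a1, a1', hy]
      · change y (ω (f 1)) = ω' (f' 1)
        rw [a2, a2', hy]
      · change y (ω (f 2)) = ω' (f' 2)
        rw [a3, a3', map_add, map_smul, hy, hy]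
      · change y (ω (f 3)) = ω' (f' 3)
        rw [a4, a4', hy]
      · change y (ω (f 4)) = ω' (f' 4)
        rw [a5, a5', hy]
      · change y (ω (f 5)) = ω' (f' 5)
        rw [a6, a6', map_add, map_smul, hy, hy]
    intro a
    exact LinearMap.congr_fun h a

end Cfsg.Agent.Lib.Cover2.SpT
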