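/-
The group-theoretic layer for the covering of `PSp₆(3^a)`.
-/
import Mathlib
import Cfsg.Agent.Lib.Cover2.SpT.CaseC
import Cfsg.Agent.Lib.Classical.Symp.SympBasis
import Cfsg.Agent.Lib.Classical.Symp.SimpleMatrix

set_option autoImplicit false

namespace Cfsg.Agent.Lib.Cover2.SpT

open Module Cfsg.Agent.Lib.Classical.Symp.AltForm Cfsg.Agent.Lib.Classical.Symp.SympBasis

variable {F V : Type*} [Field F] [AddCommGroup V] [Module F V] {B : LinearMap.BilinForm F V}

omit [AddCommGroup V] [Module F V] in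
theorem exists_as_const [Finite F] [CharP F 3] : ∃ c : F, ∀ ρ : F, ρ ^ 3 - ρ ≠ c := by
  by_contra hc
  push Not at hc
  have hsurj : Function.Surjective (fun ρ : F => ρ ^ 3 - ρ) := fun c => hc c
  have hinj := Finite.injective_iff_surjective.mpr hsurj
  have : (0 : F) = 1 := hinj (by simp)
  exact zero_ne_one this

theorem coe_mul_apply (a b : IsomGroup B) (v : V) :
    ((a * b : IsomGroup B) : V ≃ₗ[F] V) v = (a : V ≃ₗ[F] V) ((b : V ≃ₗ[F] V) v) := rfl

theorem coe_inv_left (a : IsomGroup B) (v : V) :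
    ((a⁻¹ : IsomGroup B) : V ≃ₗ[F] V) ((a : V ≃ₗ[F] V) v) = v := by
  have : ((a⁻¹ * a : IsomGroup B) : V ≃ₗ[F] V) v = v := by simp
  exact this

theorem coe_inv_right (a : IsomGroup B) (v : V) :
    (a : V ≃ₗ[F] V) (((a⁻¹ : IsomGroup B) : V ≃ₗ[F] V) v) = v := by
  have : ((a * a⁻¹ : IsomGroup B) : V ≃ₗ[F] V) v = v := by simp
  exact this

/-- An isometry as an `IsoPair`. -/
theorem isoPair_of (g : IsomGroup B) :
    IsoPair B ((g : V ≃ₗ[F] V).toLinearMap) (((g⁻¹ : IsomGroup B) : V ≃ₗ[F] V).toLinearMap) := by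
  refine ⟨?_, ?_, g.2⟩
  · ext x
    simp [coe_inv_right]
  · ext x
    simp [coe_inv_left]

/-- The subgroup of isometries normalizing `ω₀` up to scalars. -/
def normOmega (B : LinearMap.BilinForm F V) (ω0 : End F V) : Subgroup (IsomGroup B) where
  carrier := {x | ∃ k : F, ∀ v, (x : V ≃ₗ[F] V) (ω0 v) = ω0 ((x : V ≃ₗ[F] V) v) + k • (x : V ≃ₗ[F] V) v}
  mul_mem' := by
    rintro a b ⟨k1, h1⟩ ⟨k2, h2⟩
    refine ⟨k1 + k2, fun v => ?_⟩
    simp only [coe_mul_apply]
    rw [h2, map_add, h1, map_smul, add_smul, add_assoc]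
  one_mem' := ⟨0, by simp⟩
  inv_mem' := by
    rintro a ⟨k, h⟩
    refine ⟨-k, fun v => ?_⟩
    have h1 := h (((a⁻¹ : IsomGroup B) : V ≃ₗ[F] V) v)
    rw [coe_inv_right] at h1
    have h2 := congrArg (fun y => ((a⁻¹ : IsomGroup B) : V ≃ₗ[F] V) y) h1
    simp only [coe_inv_left, map_add, map_smul] at h2
    rw [h2, neg_smul, ← coe_inv_left a (((a⁻¹ : IsomGroup B) : V ≃ₗ[F] V) v), coe_inv_right]
    abel

theorem mem_normOmega {ω0 : End F V} {x : IsomGroup B} :
    x ∈ normOmega B ω0 ↔ ∃ k : F, ∀ v, (x : V ≃ₗ[F] V) (ω0 v) = ω0 ((x : V ≃ₗ[F] V) v) + k • (x : V ≃ₗ[F] V) v :=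
  Iff.rfl

section
variable [FiniteDimensional F V]

theorem mem_stab_of_le {W : Submodule F V} (g : IsomGroup B) (h : ∀ x ∈ W, (g : V ≃ₗ[F] V) x ∈ W) :
    g ∈ stabSub B W := by
  rw [mem_stabSub]
  have hmap : W.map ((g : V ≃ₗ[F] V) : V →ₗ[F] V) = W := by
    apply Submodule.eq_of_le_of_finrank_eq
    · rintro _ ⟨x, hx, rfl⟩
      exact h x hx
    · exact LinearEquiv.finrank_map_eq (g : V ≃ₗ[F] V) W
  intro x
  refine ⟨h x, fun hx => ?_⟩
  rw [← hmap] at hx
  obtain ⟨x', hx', he⟩ := hx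
  have : x' = x := (g : V ≃ₗ[F] V).injective he
  rwa [← this]

/-- Transvections not normalizing `ω₀`. -/
theorem tv_not_mem_normOmega [CharP F 3] (hAlt : B.IsAlt) (hNd : B.Nondegenerate) (hdim : finrank F V = 6)
    {c : F} (hc : ∀ ρ : F, ρ ^ 3 - ρ ≠ c) {ω0 : End F V} (h3 : ω0 ^ 3 - ω0 = c • 1) {w : V} (hw : w ≠ 0) :
    (⟨tv hAlt w 1, tv_mem hAlt w 1⟩ : IsomGroup B) ∉ normOmega B ω0 := by
  have hanti : ∀ x y, B x y = - B y x := fun x y => (LinearMap.BilinForm.IsAlt.neg_eq hAlt y x).symm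
  rintro ⟨k, hk⟩
  simp only [tv_apply, one_mul] at hk
  -- a vector orthogonal to `w`, not proportional to `w`
  have hfr : finrank F (B.orthogonal (Submodule.span F {w})) = 5 := by
    have e := LinearMap.BilinForm.finrank_orthogonal hNd (Submodule.span F {w})
    rw [finrank_span_singleton hw, hdim] at e
    simpa using e
  have hnle : ¬ B.orthogonal (Submodule.span F {w}) ≤ Submodule.span F {w} := by
    intro hle
    have := Submodule.finrank_mono hle
    rw [hfr, finrank_span_singleton hw] at this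
    omega
  obtain ⟨x, hxO, hxw⟩ := SetLike.not_le_iff_exists.mp hnle
  have hxB : B x w = 0 := by
    rw [LinearMap.BilinForm.mem_orthogonal_iff] at hxO
    have := hxO w (Submodule.mem_span_singleton_self w)
    have e : B w x = 0 := this
    rw [hanti, e, neg_zero]
  have hk0 : k = 0 := by
    by_contra hne
    apply hxw
    have e := hk x
    rw [hxB, zero_smul, add_zero] at e
    have e2 : B (ω0 x) w • w = k • x := by
      linear_combination (norm := module) e
    rw [Submodule.mem_span_singleton]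
    refine ⟨k⁻¹ * B (ω0 x) w, ?_⟩
    rw [mul_smul, e2, smul_smul, inv_mul_cancel₀ hne, one_smul]
  obtain ⟨z', hz'⟩ : ∃ z', B w z' ≠ 0 := by
    by_contra hcc
    push Not at hcc
    exact hw (hNd.1 w hcc)
  set z := (-(B w z')⁻¹) • z' with hz
  have hzw : B z w = 1 := by
    rw [hz, map_smul, LinearMap.smul_apply, hanti z' w, smul_eq_mul]
    field_simp
  have e := hk z
  rw [hzw, hk0, zero_smul, add_zero, one_smul, map_add] at e
  have e2 : ω0 w = B (ω0 z) w • w := by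
    linear_combination (norm := module) -e
  set ρ := B (ω0 z) w with hρ
  have e3 : (ω0 ^ 3 - ω0) w = (ρ ^ 3 - ρ) • w := by
    simp only [pow_succ, pow_zero, one_mul, LinearMap.sub_apply, Module.End.mul_apply]
    have h2 : ω0 (ω0 w) = (ρ * ρ) • w := by rw [e2, map_smul, e2, smul_smul]
    have h3' : ω0 (ω0 (ω0 w)) = (ρ * ρ * ρ) • w := by rw [h2, map_smul, e2, smul_smul, mul_comm]
    rw [h3', e2, ← sub_smul]
  rw [h3] at e3
  simp only [LinearMap.smul_apply, Module.End.one_apply] at e3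
  have e4 : (ρ ^ 3 - ρ - c) • w = 0 := by
    rw [sub_smul, ← e3, sub_self]
  have e5 := (smul_eq_zero.mp e4).resolve_right hw
  exact hc ρ (sub_eq_zero.mp e5)

/-- A plane `span {e₀, f₀}` is moved by some transvection. -/
theorem tv_not_mem_stab (hAlt : B.IsAlt) (hNd : B.Nondegenerate) (hdim : finrank F V = 6)
    {e0 f0 : V} (he : B e0 f0 = 1) :
    ∃ w, (⟨tv hAlt w 1, tv_mem hAlt w 1⟩ : IsomGroup B) ∉ stabSub B (Submodule.span F {e0, f0}) := by
  set W0 := Submodule.span F {e0, f0} with hW0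
  have hfr0 : finrank F W0 ≤ 2 := by
    have := finrank_range_le_card (R := F) (![e0, f0])
    have e2 : Set.range ![e0, f0] = {e0, f0} := by
      simp [Matrix.range_cons, Matrix.range_empty]
      exact Set.pair_comm _ _
    rw [e2] at this
    simpa [Set.finrank] using this
  have hfrO : 4 ≤ finrank F (B.orthogonal W0) := by
    have e := LinearMap.BilinForm.finrank_orthogonal hNd W0
    rw [hdim] at e
    omega
  have hnle : ¬ B.orthogonal W0 ≤ W0 := by
    intro hle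
    have := Submodule.finrank_mono hle
    omega
  obtain ⟨y, hyO, hyW⟩ := SetLike.not_le_iff_exists.mp hnle
  have hey : B e0 y = 0 := by
    rw [LinearMap.BilinForm.mem_orthogonal_iff] at hyO
    exact hyO e0 (Submodule.subset_span (by simp))
  refine ⟨f0 + y, fun hmem => ?_⟩
  have he0 : e0 ∈ W0 := Submodule.subset_span (by simp)
  have hf0 : f0 ∈ W0 := Submodule.subset_span (by simp)
  have h1 := (mem_stabSub.mp hmem e0).mp he0
  simp only [tv_apply, one_mul, map_add, he, hey, add_zero, one_smul] at h1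
  apply hyW
  have e2 : y = e0 + (f0 + y) - e0 - f0 := by abel
  rw [e2]
  exact W0.sub_mem (W0.sub_mem h1 he0) hf0

/-- The abstract covering of the isometry group. -/
theorem cover_isom [Finite F] [CharP F 3] (hAlt : B.IsAlt) (hNd : B.Nondegenerate) (hdim : finrank F V = 6)
    (hconj : ∀ {c : F}, (∀ ρ : F, ρ ^ 3 - ρ ≠ c) → ∀ {ω ω' : End F V}, SA B ω → ω ^ 3 - ω = c • 1 → SA B ω' →
      ω' ^ 3 - ω' = c • 1 → ∃ y : V ≃ₗ[F] V, (∀ a b, B (y a) (y b) = B a b) ∧ ∀ a, y (ω a) = ω' (y a)) :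
    ∃ H K : Subgroup (IsomGroup B), H ≠ ⊤ ∧ K ≠ ⊤ ∧
      (∀ x : IsomGroup B, ((∀ v, (x : V ≃ₗ[F] V) v = v) ∨ (∀ v, (x : V ≃ₗ[F] V) v = - v)) → x ∈ H ∧ x ∈ K) ∧
      ∀ g : IsomGroup B, ∃ x : IsomGroup B, x * g * x⁻¹ ∈ H ∨ x * g * x⁻¹ ∈ K := by
  have hanti : ∀ x y, B x y = - B y x := fun x y => (LinearMap.BilinForm.IsAlt.neg_eq hAlt y x).symm
  obtain ⟨c, hc⟩ := exists_as_const (F := F)
  haveI : Nontrivial V := Module.nontrivial_of_finrank_pos (by rw [hdim]; norm_num)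
  obtain ⟨e0, he0⟩ := exists_ne (0 : V)
  obtain ⟨f', hf'⟩ : ∃ f', B e0 f' ≠ 0 := by
    by_contra hcc
    push Not at hcc
    exact he0 (hNd.1 e0 hcc)
  set f0 := (B e0 f')⁻¹ • f' with hf0
  have he0f0 : B e0 f0 = 1 := by
    rw [hf0, map_smul, smul_eq_mul, inv_mul_cancel₀ hf']
  set W0 := Submodule.span F {e0, f0} with hW0
  set H := stabSub B W0 with hH
  have hHtop : H ≠ ⊤ := by
    obtain ⟨w, hw⟩ := tv_not_mem_stab hAlt hNd hdim he0f0
    intro htop
    exact hw (by rw [← hW0, ← hH, htop]; trivial)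
  have hHpm : ∀ x : IsomGroup B, ((∀ v, (x : V ≃ₗ[F] V) v = v) ∨ (∀ v, (x : V ≃ₗ[F] V) v = - v)) → x ∈ H := by
    intro x hx
    refine mem_stab_of_le x fun y hy => ?_
    rcases hx with hx | hx
    · rwa [hx]
    · rw [hx]; exact W0.neg_mem hy
  -- the Split2 case
  have hsplit : ∀ g : IsomGroup B, Split2 B ((g : V ≃ₗ[F] V).toLinearMap) → ∃ x : IsomGroup B, x * g * x⁻¹ ∈ H := by
    rintro g ⟨e, f, hef, h1, h2⟩
    obtain ⟨y, hy, hye, hyf⟩ := tvGroup_transitive_pair hAlt (W := ⊤)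
      (fun x _ hx => by
        by_contra hcc
        push Not at hcc
        exact hx (hNd.1 x fun z => hcc z trivial))
      (u := e) (v := f) (u' := e0) (v' := f0) trivial trivial trivial trivial hef he0f0
    let x : IsomGroup B := ⟨y, tvGroup_le_isomGroup hAlt _ hy⟩
    refine ⟨x, mem_stab_of_le _ fun z hz => ?_⟩
    have hxe : (x : V ≃ₗ[F] V) e = e0 := hye
    have hxf : (x : V ≃ₗ[F] V) f = f0 := hyf
    have key : ∀ u ∈ Submodule.span F {e, f}, (x : V ≃ₗ[F] V) u ∈ W0 := by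
      intro u hu
      obtain ⟨a, b, rfl⟩ := Submodule.mem_span_pair.mp hu
      rw [map_add, map_smul, map_smul, hxe, hxf]
      exact Submodule.mem_span_pair.mpr ⟨a, b, rfl⟩
    have hinv : ∀ u ∈ W0, ((x⁻¹ : IsomGroup B) : V ≃ₗ[F] V) u ∈ Submodule.span F {e, f} := by
      intro u hu
      obtain ⟨a, b, rfl⟩ := Submodule.mem_span_pair.mp hu
      rw [map_add, map_smul, map_smul, ← hxe, ← hxf, coe_inv_left, coe_inv_left]
      exact Submodule.mem_span_pair.mpr ⟨a, b, rfl⟩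
    rw [coe_mul_apply, coe_mul_apply]
    apply key
    have hgg : ∀ u ∈ Submodule.span F {e, f}, (g : V ≃ₗ[F] V) u ∈ Submodule.span F {e, f} := by
      intro u hu
      obtain ⟨a, b, rfl⟩ := Submodule.mem_span_pair.mp hu
      rw [map_add, map_smul, map_smul]
      exact Submodule.add_mem _ (Submodule.smul_mem _ _ h1) (Submodule.smul_mem _ _ h2)
    exact hgg _ (hinv z hz)
  by_cases hω : ∃ ω0 : End F V, SA B ω0 ∧ ω0 ^ 3 - ω0 = c • 1
  · obtain ⟨ω0, hω1, hω2⟩ := hω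
    refine ⟨H, normOmega B ω0, hHtop, ?_, ?_, ?_⟩
    · intro htop
      exact tv_not_mem_normOmega hAlt hNd hdim hc hω2 he0 (by rw [htop]; trivial)
    · intro x hx
      refine ⟨hHpm x hx, 0, fun v => ?_⟩
      rcases hx with hx | hx
      · simp [hx]
      · simp [hx]
    · intro g
      rcases dichotomy hAlt hNd hdim (isoPair_of g) c hc with h | ⟨ω, k, h1, h2, h3⟩
      · obtain ⟨x, hx⟩ := hsplit g h
        exact ⟨x, Or.inl hx⟩
      · obtain ⟨y, hy1, hy2⟩ := hconj hc h1 h2 hω1 hω2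
        let x : IsomGroup B := ⟨y, hy1⟩
        have hx2 : ∀ a, (x : V ≃ₗ[F] V) (ω a) = ω0 ((x : V ≃ₗ[F] V) a) := hy2
        refine ⟨x, Or.inr ⟨k, fun v => ?_⟩⟩
        simp only [coe_mul_apply]
        have e1 : ((x⁻¹ : IsomGroup B) : V ≃ₗ[F] V) (ω0 v) = ω (((x⁻¹ : IsomGroup B) : V ≃ₗ[F] V) v) := by
          have := hx2 (((x⁻¹ : IsomGroup B) : V ≃ₗ[F] V) v)
          rw [coe_inv_right] at this
          rw [← this, coe_inv_left]
        rw [e1]
        have e2 := h3 (((x⁻¹ : IsomGroup B) : V ≃ₗ[F] V) v)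
        simp only [LinearEquiv.coe_coe] at e2
        rw [e2, map_add, hx2, map_smul]
  · refine ⟨H, H, hHtop, hHtop, fun x hx => ⟨hHpm x hx, hHpm x hx⟩, ?_⟩
    intro g
    rcases dichotomy hAlt hNd hdim (isoPair_of g) c hc with h | ⟨ω, k, h1, h2, h3⟩
    · obtain ⟨x, hx⟩ := hsplit g h
      exact ⟨x, Or.inl hx⟩
    · exact absurd ⟨ω, h1, h2⟩ hω

end

end Cfsg.Agent.Lib.Cover2.SpT
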