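import Mathlib
import Cfsg.Agent.Lib.Cover2.SpT.Group
import Cfsg.Agent.Lib.Classical.Symp.SimpleMatrix
import Cfsg.Agent.Lib.Cover2.SpT.Conj

set_option autoImplicit false

namespace Cfsg.Agent.Lib.Cover2.SpT

open Module Matrix Cfsg.Agent.Lib.Classical.Symp.AltForm Cfsg.Agent.Lib.Classical.Symp.SympBasis
open Cfsg.Agent.Lib.Classical.Symp.Basic Cfsg.Agent.Lib.Classical.Symp.SimpleMatrix

theorem cover2_of_conj {F : Type*} [Field F] [Fintype F] [CharP F 3]
    (hconj : ∀ {c : F}, (∀ ρ : F, ρ ^ 3 - ρ ≠ c) → ∀ {ω ω' : End F (Fin 3 ⊕ Fin 3 → F)}, SA (sympBilin 3 F) ω → ω ^ 3 - ω = c • 1 → SA (sympBilin 3 F) ω' →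
      ω' ^ 3 - ω' = c • 1 → ∃ y : (Fin 3 ⊕ Fin 3 → F) ≃ₗ[F] (Fin 3 ⊕ Fin 3 → F), (∀ a b, sympBilin 3 F (y a) (y b) = sympBilin 3 F a b) ∧ ∀ a, y (ω a) = ω' (y a)) :
    Cfsg.Agent.Lib.Cover2.Cover2 (Cfsg.PSp 3 F) := by
  have hdim : finrank F (Fin 3 ⊕ Fin 3 → F) = 6 := by
    simp
  obtain ⟨H, K, hH, hK, hpm, hcov⟩ := cover_isom (F := F) (B := sympBilin 3 F) sympBilin_isAlt sympBilin_nondegenerate hdim hconj
  let φ : symplecticGroup (Fin 3) F ≃* IsomGroup (sympBilin 3 F) := spEquivIsom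
  have key : ∀ L : Subgroup (IsomGroup (sympBilin 3 F)), L ≠ ⊤ → L.comap φ.toMonoidHom ≠ ⊤ := by
    intro L hL htop
    apply hL
    rw [eq_top_iff]
    intro x _
    have : φ.symm x ∈ L.comap φ.toMonoidHom := by rw [htop]; trivial
    simpa using this
  have hcenter : ∀ A ∈ Subgroup.center (symplecticGroup (Fin 3) F), φ A ∈ H ∧ φ A ∈ K := by
    intro A hA
    apply hpm
    rcases (center_symplectic_iff A (by norm_num)).mp hA with h | h
    · left
      intro v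
      change (A : Matrix _ _ F) *ᵥ v = v
      rw [h]
      simp
    · right
      intro v
      change (A : Matrix _ _ F) *ᵥ v = - v
      rw [h, Matrix.neg_mulVec, Matrix.one_mulVec]
  refine Cfsg.Agent.Lib.Cover2.cover2_quotient (Subgroup.center _) (H.comap φ.toMonoidHom) (K.comap φ.toMonoidHom)
    (fun A hA => (hcenter A hA).1) (fun A hA => (hcenter A hA).2) (key H hH) (key K hK) ?_
  intro g
  obtain ⟨x, hx⟩ := hcov (φ g)
  refine ⟨φ.symm x, ?_⟩
  rcases hx with hx | hx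
  · left
    change φ (φ.symm x * g * (φ.symm x)⁻¹) ∈ H
    simpa using hx
  · right
    change φ (φ.symm x * g * (φ.symm x)⁻¹) ∈ K
    simpa using hx

/-- `PSp₆(F)`, `|F| = 3^a`, is the union of the conjugates of two proper subgroups. -/
theorem cover2 {F : Type*} [Field F] [Fintype F] (a : ℕ) (hF : Fintype.card F = 3 ^ a) :
    Cfsg.Agent.Lib.Cover2.Cover2 (Cfsg.PSp 3 F) := by
  haveI : Fact (Nat.Prime 3) := ⟨Nat.prime_three⟩
  haveI : CharP F 3 := charP_of_card_eq_prime_pow hF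
  exact cover2_of_conj fun hc _ _ h1 h2 h1' h2' =>
    exists_isom_intertwine sympBilin_isAlt sympBilin_nondegenerate (by simp) hc h1 h2 h1' h2'

end Cfsg.Agent.Lib.Cover2.SpT
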